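import Mathlib
import Cfsg.Prelude.Def_Solvable

set_option autoImplicit false
set_option linter.all false

/-!
Frobenius complements from fixed point free actions (helper21).
-/

namespace Cfsg.Agent.H21

open scoped Pointwise in
theorem frob_of_fpf {V A : Type*} [Group V] [Group A] (φ : A →* MulAut V)
    (hfpf : ∀ a : A, a ≠ 1 → ∀ v : V, φ a v = v → v = 1) (hV : Nontrivial V) (hA : Nontrivial A) :
    Cfsg.IsFrobeniusComplement (SemidirectProduct.inr : A →* V ⋊[φ] A).range := by
  refine ⟨?_, ?_, ?_⟩
  · intro h
    obtain ⟨a, ha⟩ := exists_ne (1 : A)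
    have h1 : (SemidirectProduct.inr a : V ⋊[φ] A) ∈ (SemidirectProduct.inr : A →* V ⋊[φ] A).range := ⟨a, rfl⟩
    rw [h, Subgroup.mem_bot] at h1
    apply ha
    exact SemidirectProduct.inr_injective (h1.trans (map_one _).symm)
  · intro h
    obtain ⟨v, hv⟩ := exists_ne (1 : V)
    have h1 : (SemidirectProduct.inl v : V ⋊[φ] A) ∈ (SemidirectProduct.inr : A →* V ⋊[φ] A).range := by rw [h]; trivial
    obtain ⟨a, ha⟩ := h1
    apply hv
    have := congrArg SemidirectProduct.left ha
    simpa using this.symm
  · intro g hg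
    rw [Subgroup.eq_bot_iff_forall]
    rintro x hx
    obtain ⟨hx1, hx2⟩ := Subgroup.mem_inf.1 hx
    obtain ⟨a, rfl⟩ := hx1
    rw [Subgroup.mem_smul_pointwise_iff_exists] at hx2
    obtain ⟨y, ⟨b, rfl⟩, hb⟩ := hx2
    have hb' : g * SemidirectProduct.inr b * g⁻¹ = SemidirectProduct.inr a := hb
    rw [mul_inv_eq_iff_eq_mul] at hb'
    -- write g = inl v * inr c
    have h1 := congrArg SemidirectProduct.left hb'
    have h2 := congrArg SemidirectProduct.right hb'
    simp only [SemidirectProduct.mul_left, SemidirectProduct.mul_right, SemidirectProduct.left_inr, SemidirectProduct.right_inr,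
      map_one, mul_one, one_mul] at h1 h2
    -- h1 : g.left = φ a g.left
    by_cases ha : a = 1
    · rw [ha, map_one]
    · exfalso
      apply hg
      have h3 := hfpf a ha g.left h1.symm
      exact ⟨g.right, SemidirectProduct.ext (by simp [h3]) (by simp)⟩

/-- a linear action -/
def linAct {A F ι : Type*} [Group A] [Field F] [Fintype ι] [DecidableEq ι] (ψ : A →* Matrix.SpecialLinearGroup ι F) :
    A →* MulAut (Multiplicative (ι → F)) where
  toFun a :=
    { toFun := fun f => Multiplicative.ofAdd ((ψ a : Matrix ι ι F).mulVec (Multiplicative.toAdd f))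
      invFun := fun f => Multiplicative.ofAdd ((ψ a⁻¹ : Matrix ι ι F).mulVec (Multiplicative.toAdd f))
      left_inv := by
        intro f
        apply Multiplicative.toAdd.injective
        show (ψ a⁻¹ : Matrix ι ι F).mulVec ((ψ a : Matrix ι ι F).mulVec (Multiplicative.toAdd f)) = Multiplicative.toAdd f
        rw [Matrix.mulVec_mulVec, ← Matrix.SpecialLinearGroup.coe_mul, ← map_mul, inv_mul_cancel, map_one, Matrix.SpecialLinearGroup.coe_one, Matrix.one_mulVec]
      right_inv := by
        intro f
        apply Multiplicative.toAdd.injective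
        show (ψ a : Matrix ι ι F).mulVec ((ψ a⁻¹ : Matrix ι ι F).mulVec (Multiplicative.toAdd f)) = Multiplicative.toAdd f
        rw [Matrix.mulVec_mulVec, ← Matrix.SpecialLinearGroup.coe_mul, ← map_mul, mul_inv_cancel, map_one, Matrix.SpecialLinearGroup.coe_one, Matrix.one_mulVec]
      map_mul' := by
        intro f g
        apply Multiplicative.toAdd.injective
        show (ψ a : Matrix ι ι F).mulVec (Multiplicative.toAdd f + Multiplicative.toAdd g) = (ψ a : Matrix ι ι F).mulVec (Multiplicative.toAdd f) + (ψ a : Matrix ι ι F).mulVec (Multiplicative.toAdd g)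
        rw [Matrix.mulVec_add] }
  map_one' := by
    apply MulEquiv.ext
    intro f
    apply Multiplicative.toAdd.injective
    show (ψ 1 : Matrix ι ι F).mulVec (Multiplicative.toAdd f) = Multiplicative.toAdd f
    rw [map_one, Matrix.SpecialLinearGroup.coe_one, Matrix.one_mulVec]
  map_mul' := by
    intro a b
    apply MulEquiv.ext
    intro f
    apply Multiplicative.toAdd.injective
    show (ψ (a * b) : Matrix ι ι F).mulVec (Multiplicative.toAdd f) = (ψ a : Matrix ι ι F).mulVec ((ψ b : Matrix ι ι F).mulVec (Multiplicative.toAdd f))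
    rw [Matrix.mulVec_mulVec, ← Matrix.SpecialLinearGroup.coe_mul, ← map_mul]

end Cfsg.Agent.H21
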