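import Cfsg.Agent.H18.Zsig

set_option autoImplicit false
set_option linter.unusedVariables false

/-! Large primitive prime divisors: finite checks. -/

namespace Cfsg.Agent.H21.LZ

def Good (q n : ℕ) : Prop := ∃ p : ℕ, p.Prime ∧ p ∣ q ^ n - 1 ∧ (∀ i : ℕ, 1 ≤ i → i < n → ¬ p ∣ q ^ i - 1) ∧ (n + 1 < p ∨ p ^ 2 ∣ q ^ n - 1)

def chk (q n p : ℕ) : Bool :=
  ((q ^ n - 1) % p == 0) && ((List.range n).all fun i => i == 0 || ((q ^ i - 1) % p != 0)) &&
    (decide (n + 1 < p) || ((q ^ n - 1) % (p ^ 2) == 0))

theorem good_of {q n p : ℕ} (hp : p.Prime) (h : chk q n p = true) : Good q n := by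
  simp only [chk, Bool.and_eq_true, beq_iff_eq, List.all_eq_true, List.mem_range, Bool.or_eq_true, bne_iff_ne, decide_eq_true_eq] at h
  obtain ⟨⟨h1, h2⟩, h3⟩ := h
  refine ⟨p, hp, Nat.dvd_of_mod_eq_zero h1, ?_, ?_⟩
  · intro i hi hin hd
    rcases h2 i hin with h4 | h4
    · omega
    · exact h4 (Nat.mod_eq_zero_of_dvd hd)
  · rcases h3 with h4 | h4
    · exact Or.inl h4
    · exact Or.inr (Nat.dvd_of_mod_eq_zero h4)

def L2 : List ℕ := [3, 4, 5, 6, 7, 8, 9, 10, 11, 12, 13, 14, 15, 16, 17, 18, 20, 21, 22, 24, 26, 27, 28, 30, 32, 33, 34, 36, 38, 40, 42, 44, 46, 48, 50, 54, 60, 66, 70, 72, 78, 84, 90]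
def L3 : List ℕ := [3, 4, 5, 6, 8, 9, 10, 12, 14, 16, 18, 20, 24, 30]

def tot (n : ℕ) : ℕ := (List.range n).countP fun i => Nat.gcd n i == 1

theorem tot_eq (n : ℕ) : tot n = n.totient := by
  rw [tot, Nat.totient, List.countP_eq_length_filter]
  rfl

theorem chk2 : ∀ n ∈ List.range 500, 3 ≤ n → 2 ^ tot n ≤ (n * (n + 1)) ^ 2 → n ∈ L2 := by decide +kernel
theorem chk3 : ∀ n ∈ List.range 500, 3 ≤ n → 2 ^ tot n < n * (n + 1) → n ∈ L3 := by decide +kernel

theorem W2 : ∀ n ∈ ([3, 5, 7, 8, 9, 11, 13, 14, 15, 16, 17, 20, 21, 22, 24, 26, 27, 28, 30, 32, 33, 34, 36, 38, 40, 42, 44, 46, 48, 50, 54, 60, 66, 70, 72, 78, 84, 90] : List ℕ), Good 2 n := by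
  intro n hn
  simp only [List.mem_cons, List.not_mem_nil, or_false] at hn
  rcases hn with rfl | rfl | rfl | rfl | rfl | rfl | rfl | rfl | rfl | rfl | rfl | rfl | rfl | rfl | rfl | rfl | rfl | rfl | rfl | rfl | rfl | rfl | rfl | rfl | rfl | rfl | rfl | rfl | rfl | rfl | rfl | rfl | rfl | rfl | rfl | rfl | rfl | rfl
  · exact good_of (p := 7) (by norm_num) (by decide +kernel)
  · exact good_of (p := 31) (by norm_num) (by decide +kernel)
  · exact good_of (p := 127) (by norm_num) (by decide +kernel)
  · exact good_of (p := 17) (by norm_num) (by decide +kernel)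
  · exact good_of (p := 73) (by norm_num) (by decide +kernel)
  · exact good_of (p := 23) (by norm_num) (by decide +kernel)
  · exact good_of (p := 8191) (by norm_num) (by decide +kernel)
  · exact good_of (p := 43) (by norm_num) (by decide +kernel)
  · exact good_of (p := 151) (by norm_num) (by decide +kernel)
  · exact good_of (p := 257) (by norm_num) (by decide +kernel)
  · exact good_of (p := 131071) (by norm_num) (by decide +kernel)
  · exact good_of (p := 41) (by norm_num) (by decide +kernel)
  · exact good_of (p := 337) (by norm_num) (by decide +kernel)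
  · exact good_of (p := 683) (by norm_num) (by decide +kernel)
  · exact good_of (p := 241) (by norm_num) (by decide +kernel)
  · exact good_of (p := 2731) (by norm_num) (by decide +kernel)
  · exact good_of (p := 262657) (by norm_num) (by decide +kernel)
  · exact good_of (p := 113) (by norm_num) (by decide +kernel)
  · exact good_of (p := 331) (by norm_num) (by decide +kernel)
  · exact good_of (p := 65537) (by norm_num) (by decide +kernel)
  · exact good_of (p := 599479) (by norm_num) (by decide +kernel)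
  · exact good_of (p := 43691) (by norm_num) (by decide +kernel)
  · exact good_of (p := 109) (by norm_num) (by decide +kernel)
  · exact good_of (p := 174763) (by norm_num) (by decide +kernel)
  · exact good_of (p := 61681) (by norm_num) (by decide +kernel)
  · exact good_of (p := 5419) (by norm_num) (by decide +kernel)
  · exact good_of (p := 397) (by norm_num) (by decide +kernel)
  · exact good_of (p := 2796203) (by norm_num) (by decide +kernel)
  · exact good_of (p := 97) (by norm_num) (by decide +kernel)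
  · exact good_of (p := 251) (by norm_num) (by decide +kernel)
  · exact good_of (p := 87211) (by norm_num) (by decide +kernel)
  · exact good_of (p := 1321) (by norm_num) (by decide +kernel)
  · exact good_of (p := 20857) (by norm_num) (by decide +kernel)
  · exact good_of (p := 281) (by norm_num) (by decide +kernel)
  · exact good_of (p := 433) (by norm_num) (by decide +kernel)
  · exact good_of (p := 22366891) (by norm_num) (by decide +kernel)
  · exact good_of (p := 1429) (by norm_num) (by decide +kernel)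
  · exact good_of (p := 18837001) (by norm_num) (by decide +kernel)

theorem V3 {q : ℕ} (hq : 3 ≤ q) (hlt : (q - 1) ^ 2 < 12) : Good q 3 := by
  have hq2 : q < 5 := by
    by_contra hc
    have h1 : 4 ^ 2 ≤ (q - 1) ^ 2 := Nat.pow_le_pow_left (by omega) _
    omega
  interval_cases q
  · exact good_of (p := 13) (by norm_num) (by decide +kernel)
  · exact good_of (p := 7) (by norm_num) (by decide +kernel)

theorem V4 {q : ℕ} (hq : 3 ≤ q) (h0 : q ≠ 3) (hlt : (q - 1) ^ 2 < 20) : Good q 4 := by
  have hq2 : q < 6 := by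
    by_contra hc
    have h1 : 5 ^ 2 ≤ (q - 1) ^ 2 := Nat.pow_le_pow_left (by omega) _
    omega
  interval_cases q
  · exact absurd rfl h0
  · exact good_of (p := 17) (by norm_num) (by decide +kernel)
  · exact good_of (p := 13) (by norm_num) (by decide +kernel)

theorem V5 {q : ℕ} (hq : 3 ≤ q) (hlt : (q - 1) ^ 4 < 30) : Good q 5 := by
  have hq2 : q < 4 := by
    by_contra hc
    have h1 : 3 ^ 4 ≤ (q - 1) ^ 4 := Nat.pow_le_pow_left (by omega) _
    omega
  have : q = 3 := by omega
  subst this
  exact good_of (p := 11) (by norm_num) (by decide +kernel)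

theorem V6 {q : ℕ} (hq : 3 ≤ q) (h0 : q ≠ 3) (h1 : q ≠ 5) (hlt : (q - 1) ^ 2 < 42) : Good q 6 := by
  have hq2 : q < 8 := by
    by_contra hc
    have h1 : 7 ^ 2 ≤ (q - 1) ^ 2 := Nat.pow_le_pow_left (by omega) _
    omega
  interval_cases q
  · exact absurd rfl h0
  · exact good_of (p := 13) (by norm_num) (by decide +kernel)
  · exact absurd rfl h1
  · exact good_of (p := 31) (by norm_num) (by decide +kernel)
  · exact good_of (p := 43) (by norm_num) (by decide +kernel)

theorem V8 {q : ℕ} (hq : 3 ≤ q) (hlt : (q - 1) ^ 4 < 72) : Good q 8 := by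
  have hq2 : q < 4 := by
    by_contra hc
    have h1 : 3 ^ 4 ≤ (q - 1) ^ 4 := Nat.pow_le_pow_left (by omega) _
    omega
  have : q = 3 := by omega
  subst this
  exact good_of (p := 41) (by norm_num) (by decide +kernel)

theorem V9 {q : ℕ} (hq : 3 ≤ q) (hlt : (q - 1) ^ 6 < 90) : Good q 9 := by
  have hq2 : q < 4 := by
    by_contra hc
    have h1 : 3 ^ 6 ≤ (q - 1) ^ 6 := Nat.pow_le_pow_left (by omega) _
    omega
  have : q = 3 := by omega
  subst this
  exact good_of (p := 757) (by norm_num) (by decide +kernel)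

theorem V10 {q : ℕ} (hq : 3 ≤ q) (hlt : (q - 1) ^ 4 < 110) : Good q 10 := by
  have hq2 : q < 5 := by
    by_contra hc
    have h1 : 4 ^ 4 ≤ (q - 1) ^ 4 := Nat.pow_le_pow_left (by omega) _
    omega
  interval_cases q
  · exact good_of (p := 61) (by norm_num) (by decide +kernel)
  · exact good_of (p := 41) (by norm_num) (by decide +kernel)

theorem V12 {q : ℕ} (hq : 3 ≤ q) (hlt : (q - 1) ^ 4 < 156) : Good q 12 := by
  have hq2 : q < 5 := by
    by_contra hc
    have h1 : 4 ^ 4 ≤ (q - 1) ^ 4 := Nat.pow_le_pow_left (by omega) _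
    omega
  interval_cases q
  · exact good_of (p := 73) (by norm_num) (by decide +kernel)
  · exact good_of (p := 241) (by norm_num) (by decide +kernel)

theorem V14 {q : ℕ} (hq : 3 ≤ q) (hlt : (q - 1) ^ 6 < 210) : Good q 14 := by
  have hq2 : q < 4 := by
    by_contra hc
    have h1 : 3 ^ 6 ≤ (q - 1) ^ 6 := Nat.pow_le_pow_left (by omega) _
    omega
  have : q = 3 := by omega
  subst this
  exact good_of (p := 547) (by norm_num) (by decide +kernel)

theorem V16 {q : ℕ} (hq : 3 ≤ q) (hlt : (q - 1) ^ 8 < 272) : Good q 16 := by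
  have hq2 : q < 4 := by
    by_contra hc
    have h1 : 3 ^ 8 ≤ (q - 1) ^ 8 := Nat.pow_le_pow_left (by omega) _
    omega
  have : q = 3 := by omega
  subst this
  exact good_of (p := 193) (by norm_num) (by decide +kernel)

theorem V18 {q : ℕ} (hq : 3 ≤ q) (hlt : (q - 1) ^ 6 < 342) : Good q 18 := by
  have hq2 : q < 4 := by
    by_contra hc
    have h1 : 3 ^ 6 ≤ (q - 1) ^ 6 := Nat.pow_le_pow_left (by omega) _
    omega
  have : q = 3 := by omega
  subst this
  exact good_of (p := 37) (by norm_num) (by decide +kernel)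

theorem V20 {q : ℕ} (hq : 3 ≤ q) (hlt : (q - 1) ^ 8 < 420) : Good q 20 := by
  have hq2 : q < 4 := by
    by_contra hc
    have h1 : 3 ^ 8 ≤ (q - 1) ^ 8 := Nat.pow_le_pow_left (by omega) _
    omega
  have : q = 3 := by omega
  subst this
  exact good_of (p := 1181) (by norm_num) (by decide +kernel)

theorem V24 {q : ℕ} (hq : 3 ≤ q) (hlt : (q - 1) ^ 8 < 600) : Good q 24 := by
  have hq2 : q < 4 := by
    by_contra hc
    have h1 : 3 ^ 8 ≤ (q - 1) ^ 8 := Nat.pow_le_pow_left (by omega) _
    omega
  have : q = 3 := by omega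
  subst this
  exact good_of (p := 6481) (by norm_num) (by decide +kernel)

theorem V30 {q : ℕ} (hq : 3 ≤ q) (hlt : (q - 1) ^ 8 < 930) : Good q 30 := by
  have hq2 : q < 4 := by
    by_contra hc
    have h1 : 3 ^ 8 ≤ (q - 1) ^ 8 := Nat.pow_le_pow_left (by omega) _
    omega
  have : q = 3 := by omega
  subst this
  exact good_of (p := 271) (by norm_num) (by decide +kernel)


end Cfsg.Agent.H21.LZ
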