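import Cfsg.Agent.H18.Zsig

set_option autoImplicit false
set_option linter.unusedVariables false

/-! Large primitive prime divisors: bounds. -/

namespace Cfsg.Agent.H21.LZ

open Cfsg.Agent.H18.Zsig Polynomial

theorem P1 {x : ℕ} (hx : 1 < x) : Phi 1 x = x - 1 := by
  have h := cast_Phi (n := 1) hx
  rw [cyclotomic_one] at h
  simp only [eval_sub, eval_X, eval_one] at h
  omega

theorem P2 {x : ℕ} (hx : 1 < x) : Phi 2 x = x + 1 := by
  have h := cast_Phi (n := 2) hx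
  rw [cyclotomic_two] at h
  simp only [eval_add, eval_X, eval_one] at h
  omega

theorem one_lt_pow' {x r : ℕ} (hx : 1 < x) (hr : 0 < r) : 1 < x ^ r := Nat.one_lt_pow hr.ne' hx

theorem exp1 {x r m : ℕ} (hx : 1 < x) (hr : r.Prime) (hd : ¬ r ∣ m) : Phi m (x ^ r) = Phi (m * r) x * Phi m x := by
  have h1 := cyclotomic_expand_eq_cyclotomic_mul hr hd ℤ
  have h2 := congrArg (eval (x : ℤ)) h1
  rw [expand_eval, eval_mul] at h2
  have h4 := cast_Phi (n := m * r) (a := x) hx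
  have h4' := cast_Phi (n := m) (a := x) hx
  have h5 := cast_Phi (n := m) (a := x ^ r) (one_lt_pow' hx hr.pos)
  push_cast at h5
  rw [← h4, ← h5, ← h4'] at h2
  exact_mod_cast h2

theorem exp2 {x r m : ℕ} (hx : 1 < x) (hr : r.Prime) (hd : r ∣ m) : Phi m (x ^ r) = Phi (m * r) x := by
  have h1 := cyclotomic_expand_eq_cyclotomic hr hd ℤ
  have h2 := congrArg (eval (x : ℤ)) h1
  rw [expand_eval] at h2
  have h4 := cast_Phi (n := m * r) (a := x) hx
  have h5 := cast_Phi (n := m) (a := x ^ r) (one_lt_pow' hx hr.pos)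
  push_cast at h5
  rw [← h4, ← h5] at h2
  exact_mod_cast h2

theorem exp3 {r m : ℕ} (hr : r.Prime) (k : ℕ) : ∀ {x : ℕ}, 1 < x → Phi (m * r ^ (k + 1)) x = Phi (m * r) (x ^ (r ^ k)) := by
  induction k with
  | zero => intro x hx; simp
  | succ k ih =>
    intro x hx
    have h1 : Phi (m * r ^ (k + 1)) (x ^ r) = Phi (m * r ^ (k + 1) * r) x :=
      exp2 hx hr ((dvd_pow_self r (Nat.succ_ne_zero k)).mul_left m)
    rw [pow_succ r (k + 1), ← mul_assoc, ← h1, ih (one_lt_pow' hx hr.pos), ← pow_mul, pow_succ' r k]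

theorem up {m x : ℕ} (hm : 0 < m) (hx : 1 < x) : Phi m x ≤ (x + 1) ^ m.totient := by
  rcases Nat.lt_or_ge m 3 with h | h
  · interval_cases m
    · rw [P1 hx, Nat.totient_one, pow_one]; omega
    · rw [P2 hx, Nat.totient_two, pow_one]
  · exact (Phi_lt h hx).le

theorem lo {m x : ℕ} (hm : 0 < m) (hx : 1 < x) : (x - 1) ^ m.totient ≤ Phi m x := by
  rcases Nat.lt_or_ge m 2 with h | h
  · interval_cases m
    rw [P1 hx, Nat.totient_one, pow_one]
  · exact (lt_Phi h hx).le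

theorem ineq {x s : ℕ} (hx : 1 < x) (hs : 1 ≤ s) : x ^ s * (x + 1) ≤ x ^ (2 * s + 1) - 1 := by
  have h1 : 2 ≤ x ^ s := le_trans hx (Nat.le_self_pow (by omega) x)
  have h2 : x ^ (2 * s + 1) = x ^ (s + 1) * x ^ s := by rw [← pow_add]; congr 1; omega
  have h3 : x ^ (s + 1) * 2 ≤ x ^ (s + 1) * x ^ s := Nat.mul_le_mul_left _ h1
  have h4 : x ^ (s + 1) = x ^ s * x := pow_succ x s
  have h5 : x ^ s * 2 ≤ x ^ s * x := Nat.mul_le_mul_left _ hx
  rw [h2]
  have h6 : x ^ s * (x + 1) + 1 ≤ x ^ (s + 1) * x ^ s := by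
    have : x ^ s * (x + 1) = x ^ (s + 1) + x ^ s := by rw [h4]; ring
    rw [this]
    omega
  omega

theorem base_bound {x r m : ℕ} (hx : 1 < x) (hr : r.Prime) (hr2 : r ≠ 2) (hm : 0 < m) (hd : ¬ r ∣ m) :
    x ^ (m * r).totient ≤ Phi (m * r) x ^ 2 := by
  obtain ⟨s, hs⟩ := hr.odd_of_ne_two hr2
  have hs1 : 1 ≤ s := by
    have := hr.two_le
    omega
  have h1 := exp1 (m := m) hx hr hd
  have h2 := lo hm (one_lt_pow' hx hr.pos)
  have h3 := up hm hx
  rw [h1] at h2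
  have h4 : (x ^ s * (x + 1)) ^ m.totient ≤ (x ^ r - 1) ^ m.totient := by
    apply Nat.pow_le_pow_left
    rw [hs]
    exact ineq hx hs1
  have h5 : (x ^ s) ^ m.totient * (x + 1) ^ m.totient ≤ Phi (m * r) x * (x + 1) ^ m.totient := by
    rw [← mul_pow]
    exact h4.trans (h2.trans (Nat.mul_le_mul_left _ h3))
  have h6 : (x ^ s) ^ m.totient ≤ Phi (m * r) x := Nat.le_of_mul_le_mul_right h5 (pow_pos (by omega) _)
  have h7 : (m * r).totient = 2 * (s * m.totient) := by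
    rw [Nat.totient_mul ((hr.coprime_iff_not_dvd.2 hd).symm), Nat.totient_prime hr]
    have : r - 1 = 2 * s := by omega
    rw [this]; ring
  rw [h7]
  calc x ^ (2 * (s * m.totient)) = ((x ^ s) ^ m.totient) ^ 2 := by rw [← pow_mul, ← pow_mul]; congr 1; ring
    _ ≤ Phi (m * r) x ^ 2 := Nat.pow_le_pow_left h6 2

/-- the lower bound for the value at 2 -/
theorem lower {n x : ℕ} (hn : 2 ≤ n) (hx : 1 < x) : x ^ n.totient ≤ Phi n x ^ 2 := by
  by_cases hodd : ∃ r : ℕ, r.Prime ∧ r ≠ 2 ∧ r ∣ n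
  · obtain ⟨r, hr, hr2, hrn⟩ := hodd
    obtain ⟨k, m, hm, hnm⟩ := Nat.exists_eq_pow_mul_and_not_dvd (n := n) (by omega) r hr.ne_one
    have hk : k ≠ 0 := by
      rintro rfl
      rw [pow_zero, one_mul] at hnm
      exact hm (hnm ▸ hrn)
    obtain ⟨j, rfl⟩ := Nat.exists_eq_succ_of_ne_zero hk
    have hm0 : 0 < m := by
      rcases Nat.eq_zero_or_pos m with h0 | h0
      · rw [h0] at hm; simp at hm
      · exact h0
    have e : n = m * r ^ (j + 1) := by rw [hnm, mul_comm]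
    rw [e, exp3 hr j hx]
    have h1 := base_bound (one_lt_pow' hx (pow_pos hr.pos j)) hr hr2 hm0 hm
    have h2 : (m * r ^ (j + 1)).totient = r ^ j * (m * r).totient := by
      have c1 : Nat.Coprime m r := (hr.coprime_iff_not_dvd.2 hm).symm
      rw [Nat.totient_mul (c1.pow_right _), Nat.totient_mul c1, Nat.totient_prime_pow_succ hr, Nat.totient_prime hr]
      ring
    rw [h2, pow_mul]
    exact h1
  · push Not at hodd
    have h2 : ∃ k, n = 2 ^ k := by
      refine ⟨_, Nat.eq_prime_pow_of_unique_prime_dvd (p := 2) (by omega) ?_⟩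
      intro d hd hdn
      by_contra hne
      exact hodd d hd hne hdn
    obtain ⟨k, rfl⟩ := h2
    have hk : k ≠ 0 := by rintro rfl; simp at hn
    obtain ⟨j, rfl⟩ := Nat.exists_eq_succ_of_ne_zero hk
    have h3 : Phi (1 * 2 ^ (j + 1)) x = Phi (1 * 2) (x ^ (2 ^ j)) := exp3 Nat.prime_two j hx
    rw [one_mul, one_mul, P2 (one_lt_pow' hx (pow_pos (by norm_num) j))] at h3
    rw [h3, Nat.totient_prime_pow_succ Nat.prime_two, show (2 : ℕ) - 1 = 1 from rfl, mul_one]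
    have : x ^ 2 ^ j ≤ x ^ 2 ^ j + 1 := Nat.le_succ _
    calc x ^ 2 ^ j ≤ x ^ 2 ^ j + 1 := this
      _ ≤ (x ^ 2 ^ j + 1) ^ 2 := Nat.le_self_pow (by norm_num) _

end Cfsg.Agent.H21.LZ
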