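import Cfsg.Agent.H21.LZ1
import Cfsg.Agent.H21.LZ2

set_option autoImplicit false
set_option linter.unusedVariables false

/-! Large primitive prime divisors. -/

namespace Cfsg.Agent.H21.LZ

open Cfsg.Agent.H18.Zsig

theorem tot6 : ∀ n : ℕ, Nat.Coprime n 6 → n ^ 2 ≤ n.totient ^ 3 := by
  intro n
  induction n using Nat.recOnPosPrimePosCoprime with
  | prime_pow p k hp hk =>
    intro hc
    obtain ⟨j, rfl⟩ := Nat.exists_eq_succ_of_ne_zero hk.ne'
    have hc' : Nat.Coprime p 6 := Nat.Coprime.coprime_dvd_left (dvd_pow_self p (Nat.succ_ne_zero j)) hc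
    have hp5 : 5 ≤ p := by
      by_contra hlt
      have := hp.two_le
      have h4 : p = 2 ∨ p = 3 ∨ p = 4 := by omega
      rcases h4 with rfl | rfl | rfl
      · revert hc'; decide
      · revert hc'; decide
      · revert hp; decide
    rw [Nat.totient_prime_pow_succ hp]
    have h1 : p ^ 2 ≤ (p - 1) ^ 3 := by
      obtain ⟨c, rfl⟩ : ∃ c, p = c + 5 := ⟨p - 5, by omega⟩
      have : c + 5 - 1 = c + 4 := by omega
      rw [this]
      nlinarith [sq_nonneg c]
    calc (p ^ (j + 1)) ^ 2 = (p ^ j) ^ 2 * p ^ 2 := by rw [pow_succ]; ring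
      _ ≤ (p ^ j) ^ 3 * (p - 1) ^ 3 := Nat.mul_le_mul (Nat.pow_le_pow_right (pow_pos hp.pos j) (by norm_num)) h1
      _ = (p ^ j * (p - 1)) ^ 3 := by ring
  | zero => intro h; revert h; decide
  | one => intro _; decide
  | coprime a b ha hb hab iha ihb =>
    intro hc
    rw [Nat.totient_mul hab, mul_pow, mul_pow]
    exact Nat.mul_le_mul (iha (Nat.Coprime.coprime_dvd_left (dvd_mul_right a b) hc))
      (ihb (Nat.Coprime.coprime_dvd_left (dvd_mul_left b a) hc))

theorem tot2 (a : ℕ) : (2 ^ a) ^ 2 ≤ 4 * (2 ^ a).totient ^ 3 := by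
  cases a with
  | zero => decide
  | succ j =>
    rw [Nat.totient_prime_pow_succ Nat.prime_two, show (2 : ℕ) - 1 = 1 from rfl, mul_one]
    have : (2 ^ j) ^ 2 ≤ (2 ^ j) ^ 3 := Nat.pow_le_pow_right (by positivity) (by norm_num)
    calc (2 ^ (j + 1)) ^ 2 = 4 * (2 ^ j) ^ 2 := by rw [pow_succ]; ring
      _ ≤ 4 * (2 ^ j) ^ 3 := by omega

theorem tot3 (b : ℕ) : 8 * (3 ^ b) ^ 2 ≤ 9 * (3 ^ b).totient ^ 3 := by
  cases b with
  | zero => decide
  | succ j =>
    rw [Nat.totient_prime_pow_succ Nat.prime_three, show (3 : ℕ) - 1 = 2 from rfl]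
    have : (3 ^ j) ^ 2 ≤ (3 ^ j) ^ 3 := Nat.pow_le_pow_right (by positivity) (by norm_num)
    calc 8 * (3 ^ (j + 1)) ^ 2 = 72 * (3 ^ j) ^ 2 := by rw [pow_succ]; ring
      _ ≤ 72 * (3 ^ j) ^ 3 := by omega
      _ = 9 * (3 ^ j * 2) ^ 3 := by ring

theorem tot_bound {n : ℕ} (hn : 0 < n) : 2 * n ^ 2 ≤ 9 * n.totient ^ 3 := by
  obtain ⟨a, m1, h2, rfl⟩ := Nat.exists_eq_pow_mul_and_not_dvd (n := n) hn.ne' 2 (by norm_num)
  have hm1 : 0 < m1 := by
    rcases Nat.eq_zero_or_pos m1 with h0 | h0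
    · rw [h0] at h2; simp at h2
    · exact h0
  obtain ⟨b, m, h3, rfl⟩ := Nat.exists_eq_pow_mul_and_not_dvd (n := m1) hm1.ne' 3 (by norm_num)
  have hm : 0 < m := by
    rcases Nat.eq_zero_or_pos m with h0 | h0
    · rw [h0] at h3; simp at h3
    · exact h0
  have hm2 : ¬ 2 ∣ m := fun h => h2 (h.mul_left _)
  have c1 : Nat.Coprime (2 ^ a) (3 ^ b * m) := by
    apply Nat.Coprime.pow_left
    exact (Nat.prime_two.coprime_iff_not_dvd).2 h2
  have c2 : Nat.Coprime (3 ^ b) m := by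
    apply Nat.Coprime.pow_left
    exact (Nat.prime_three.coprime_iff_not_dvd).2 h3
  have c3 : Nat.Coprime m 6 := by
    have h5 : Nat.Coprime m 2 := ((Nat.prime_two.coprime_iff_not_dvd).2 hm2).symm
    have h6 : Nat.Coprime m 3 := ((Nat.prime_three.coprime_iff_not_dvd).2 h3).symm
    exact Nat.Coprime.mul_right h5 h6
  rw [Nat.totient_mul c1, Nat.totient_mul c2]
  have e1 := tot2 a
  have e2 := tot3 b
  have e3 := tot6 m c3
  have e4 : (2 ^ a) ^ 2 * (8 * (3 ^ b) ^ 2) * m ^ 2 ≤ (4 * (2 ^ a).totient ^ 3) * (9 * (3 ^ b).totient ^ 3) * m.totient ^ 3 :=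
    Nat.mul_le_mul (Nat.mul_le_mul e1 e2) e3
  have e5 : (2 ^ a) ^ 2 * (8 * (3 ^ b) ^ 2) * m ^ 2 = 4 * (2 * (2 ^ a * (3 ^ b * m)) ^ 2) := by ring
  have e6 : (4 * (2 ^ a).totient ^ 3) * (9 * (3 ^ b).totient ^ 3) * m.totient ^ 3 =
      4 * (9 * ((2 ^ a).totient * ((3 ^ b).totient * m.totient)) ^ 3) := by ring
  rw [e5, e6] at e4
  omega

theorem pow6 : ∀ f : ℕ, 39 ≤ f → 21 * f ^ 6 < 2 ^ f := by
  intro f hf
  induction f, hf using Nat.le_induction with
  | base => norm_num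
  | succ f hf ih =>
    have h1 : (f + 1) * 39 ≤ 40 * f := by omega
    have h2 : ((f + 1) * 39) ^ 6 ≤ (40 * f) ^ 6 := Nat.pow_le_pow_left h1 6
    have h3 : (f + 1) ^ 6 ≤ 2 * f ^ 6 := by
      rw [mul_pow, mul_pow] at h2
      norm_num at h2
      omega
    have h4 : 2 ^ (f + 1) = 2 ^ f * 2 := pow_succ 2 f
    rw [h4]
    omega

theorem big {n : ℕ} (hn : 500 ≤ n) : (n * (n + 1)) ^ 2 < 2 ^ n.totient := by
  have h1 := tot_bound (n := n) (by omega)
  obtain ⟨f, hf⟩ : ∃ f, f = n.totient := ⟨_, rfl⟩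
  rw [← hf] at h1 ⊢
  have hf39 : 39 ≤ f := by
    by_contra hc
    have h2 : f ≤ 38 := by omega
    have h3 : f ^ 3 ≤ 38 ^ 3 := Nat.pow_le_pow_left h2 3
    have h4 : 500 ^ 2 ≤ n ^ 2 := Nat.pow_le_pow_left hn 2
    norm_num at h3 h4
    omega
  have h2 := pow6 f hf39
  have h3 : (n + 1) * 500 ≤ 501 * n := by omega
  have h4 : ((n + 1) * 500) ^ 2 ≤ (501 * n) ^ 2 := Nat.pow_le_pow_left h3 2
  have h5 : (2 * n ^ 2) ^ 2 ≤ (9 * f ^ 3) ^ 2 := Nat.pow_le_pow_left h1 2
  have h6 : 250000 * (n * (n + 1)) ^ 2 ≤ 251001 * n ^ 4 := by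
    calc 250000 * (n * (n + 1)) ^ 2 = n ^ 2 * ((n + 1) * 500) ^ 2 := by ring
      _ ≤ n ^ 2 * (501 * n) ^ 2 := Nat.mul_le_mul_left _ h4
      _ = 251001 * n ^ 4 := by ring
  have h7 : 4 * n ^ 4 ≤ 81 * f ^ 6 := by
    calc 4 * n ^ 4 = (2 * n ^ 2) ^ 2 := by ring
      _ ≤ (9 * f ^ 3) ^ 2 := h5
      _ = 81 * f ^ 6 := by ring
  omega

theorem dvd_bound {q n : ℕ} (hq : 1 < q) (hn : 2 < n) (hG : ¬ Good q n) : Phi n q ∣ (n + 1) * n := by
  rw [← Nat.factorization_prime_le_iff_dvd (Phi_pos hq).ne' (by positivity)]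
  intro p hp
  by_cases hpd : p ∣ Phi n q
  · have hle1 : ∀ {N : ℕ}, N ≠ 0 → ¬ p ^ 2 ∣ N → N.factorization p ≤ 1 := by
      intro N hN h
      rw [hp.pow_dvd_iff_le_factorization hN] at h
      omega
    have hge1 : p ∣ (n + 1) * n → 1 ≤ ((n + 1) * n).factorization p := by
      intro h
      rw [← hp.pow_dvd_iff_le_factorization (by positivity), pow_one]
      exact h
    by_cases hpn : p ∣ n
    · exact (hle1 (Phi_pos hq).ne' (not_sq_dvd hq hn hp hpd hpn)).trans (hge1 (hpn.mul_left _))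
    · have hprim := primitive_of_not_dvd hq (by omega) hp hpd hpn
      have hpN : p ∣ q ^ n - 1 := hpd.trans (Phi_dvd hq)
      have hno : ¬ (n + 1 < p ∨ p ^ 2 ∣ q ^ n - 1) := fun h => hG ⟨p, hp, hpN, fun i hi hin => hprim i hi hin, h⟩
      push Not at hno
      have hge : n + 1 ≤ p := by
        by_contra hc
        have hp2 := hp.two_le
        haveI : Fact p.Prime := ⟨hp⟩
        apply hprim (p - 1) (by omega) (by omega)
        rw [dvd_pow_sub_one_iff hq]
        apply ZMod.pow_card_sub_one_eq_one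
        intro h0
        have h1 : p ∣ q := (ZMod.natCast_eq_zero_iff q p).1 h0
        have h2 : p ∣ q ^ n := dvd_pow h1 (by omega)
        have h3 : p ∣ 1 := by
          have : q ^ n = (q ^ n - 1) + 1 := by
            have : 1 ≤ q ^ n := Nat.one_le_pow _ _ (by omega)
            omega
          rw [this] at h2
          exact (Nat.dvd_add_right hpN).1 h2
        exact hp.one_lt.ne' (Nat.dvd_one.1 h3)
      have hpe : p = n + 1 := by omega
      refine (hle1 (Phi_pos hq).ne' fun h => hno.2 (h.trans (Phi_dvd hq))).trans (hge1 ?_)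
      rw [hpe]; exact dvd_mul_right _ _
  · rw [Nat.factorization_eq_zero_of_not_dvd hpd]
    exact Nat.zero_le _

theorem two_case {q : ℕ} (hq : 2 ≤ q) (hG : ¬ Good q 2) : ∃ s t : ℕ, t ≤ 1 ∧ q + 1 = 2 ^ s * 3 ^ t := by
  obtain ⟨s, m, hm, hN⟩ := Nat.exists_eq_pow_mul_and_not_dvd (n := q + 1) (by omega) 2 (by norm_num)
  have hm0 : m ≠ 0 := by rintro rfl; simp at hm
  have hfac : q ^ 2 - 1 = (q + 1) * (q - 1) := by
    have := Nat.sq_sub_sq q 1
    simpa using this
  have hp3 : ∀ p : ℕ, p.Prime → p ∣ m → p = 3 := by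
    intro p hp hpm
    have hpq : p ∣ q + 1 := by rw [hN]; exact hpm.mul_left _
    have hp2 : p ≠ 2 := by rintro rfl; exact hm hpm
    have h1 : ¬ p ∣ q - 1 := by
      intro h
      have h2 : p ∣ (q + 1) - (q - 1) := Nat.dvd_sub hpq h
      have h3 : (q + 1) - (q - 1) = 2 := by omega
      rw [h3] at h2
      exact hp2 ((Nat.prime_dvd_prime_iff_eq hp Nat.prime_two).1 h2)
    have h4 : ¬ (2 + 1 < p ∨ p ^ 2 ∣ q ^ 2 - 1) := by
      intro h
      refine hG ⟨p, hp, by rw [hfac]; exact hpq.mul_right _, ?_, h⟩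
      intro i hi hi2
      have : i = 1 := by omega
      rw [this, pow_one]; exact h1
    push Not at h4
    have := hp.two_le
    omega
  have h9 : ¬ 3 ^ 2 ∣ m := by
    intro h
    have h3m : 3 ∣ m := (dvd_pow_self 3 (by norm_num)).trans h
    have hq1 : 3 ∣ q + 1 := by rw [hN]; exact h3m.mul_left _
    have h1 : ¬ 3 ∣ q - 1 := by omega
    apply hG
    refine ⟨3, Nat.prime_three, by rw [hfac]; exact hq1.mul_right _, ?_, Or.inr ?_⟩
    · intro i hi hi2
      have : i = 1 := by omega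
      rw [this, pow_one]; exact h1
    · rw [hfac]
      exact (by rw [hN]; exact h.mul_left _ : 3 ^ 2 ∣ q + 1).mul_right _
  have hmp := Nat.eq_prime_pow_of_unique_prime_dvd (p := 3) hm0 (fun {d} hd hdm => hp3 d hd hdm)
  refine ⟨s, m.primeFactorsList.length, ?_, ?_⟩
  · by_contra hc
    apply h9
    conv_rhs => rw [hmp]
    exact pow_dvd_pow 3 (by omega)
  · rw [← hmp]; exact hN

theorem main {q n : ℕ} (hq : 2 ≤ q) (hn : 2 ≤ n)
    (h1 : ¬ (n = 2 ∧ ∃ s t : ℕ, t ≤ 1 ∧ q + 1 = 2 ^ s * 3 ^ t))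
    (h2 : ¬ (q = 2 ∧ (n = 4 ∨ n = 6 ∨ n = 10 ∨ n = 12 ∨ n = 18)))
    (h3 : ¬ (q = 3 ∧ (n = 4 ∨ n = 6))) (h4 : ¬ (q = 5 ∧ n = 6)) : Good q n := by
  by_contra hG
  rcases Nat.lt_or_ge n 3 with hn3 | hn3
  · have : n = 2 := by omega
    subst this
    exact h1 ⟨rfl, two_case hq hG⟩
  · have hd := dvd_bound (by omega) (by omega) hG
    have hle : Phi n q ≤ n * (n + 1) := by
      have := Nat.le_of_dvd (by positivity) hd
      rwa [mul_comm] at this
    have hn0 : 1 ≤ n * (n + 1) := Nat.succ_le_of_lt (by positivity)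
    rcases Nat.lt_or_ge q 3 with hq3 | hq3
    · have : q = 2 := by omega
      subst this
      have h5 := lower (n := n) (x := 2) (by omega) (by norm_num)
      have h6 : Phi n 2 ^ 2 ≤ (n * (n + 1)) ^ 2 := Nat.pow_le_pow_left hle 2
      rcases Nat.lt_or_ge n 500 with h500 | h500
      · have h7 := chk2 n (List.mem_range.2 h500) hn3 (by rw [tot_eq]; omega)
        by_cases h8 : n = 4 ∨ n = 6 ∨ n = 10 ∨ n = 12 ∨ n = 18
        · exact h2 ⟨rfl, h8⟩
        · apply hG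
          apply W2
          simp only [L2, List.mem_cons, List.not_mem_nil, or_false] at h7 ⊢
          omega
      · have := big h500
        omega
    · have h5 := lt_Phi (n := n) (a := q) (by omega) (by omega)
      have h6 : (q - 1) ^ n.totient < n * (n + 1) := by omega
      have h7 : 2 ^ n.totient ≤ (q - 1) ^ n.totient := Nat.pow_le_pow_left (by omega) _
      rcases Nat.lt_or_ge n 500 with h500 | h500
      · have h8 := chk3 n (List.mem_range.2 h500) hn3 (by rw [tot_eq]; omega)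
        simp only [L3, List.mem_cons, List.not_mem_nil, or_false] at h8
        apply hG
        rcases h8 with rfl | rfl | rfl | rfl | rfl | rfl | rfl | rfl | rfl | rfl | rfl | rfl | rfl | rfl
        · exact V3 hq3 h6
        · exact V4 hq3 (fun h => h3 ⟨h, Or.inl rfl⟩) h6
        · exact V5 hq3 h6
        · exact V6 hq3 (fun h => h3 ⟨h, Or.inr rfl⟩) (fun h => h4 ⟨h, rfl⟩) h6
        · exact V8 hq3 h6
        · exact V9 hq3 h6
        · exact V10 hq3 h6
        · exact V12 hq3 h6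
        · exact V14 hq3 h6
        · exact V16 hq3 h6
        · exact V18 hq3 h6
        · exact V20 hq3 h6
        · exact V24 hq3 h6
        · exact V30 hq3 h6
      · have h9 := big h500
        have h10 : n * (n + 1) ≤ (n * (n + 1)) ^ 2 := Nat.le_self_pow (by norm_num) _
        omega

end Cfsg.Agent.H21.LZ
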