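import Cfsg.Agent.H21.MA25
import Cfsg.Agent.H3.Counting

set_option autoImplicit false
set_option linter.unusedSectionVars false
set_option linter.unusedVariables false
set_option linter.style.haveILetI false

/-! Class structure of the simple group of order 7920. -/

namespace Cfsg.Agent.H21.MA

open Subgroup MulAction Cfsg
open scoped Pointwise

section three
variable {G : Type*} [Group G] [Finite G] [IsSimpleGroup G] (hc : Nat.card G = 7920)
include hc

omit [Finite G] [IsSimpleGroup G] hc in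
theorem k3 {k : ℕ} (h : k ^ 3 ≡ 1 [MOD 8]) : k ≡ 1 [MOD 8] := by
  have h1 : k % 8 < 8 := Nat.mod_lt _ (by norm_num)
  unfold Nat.ModEq at h ⊢
  rw [Nat.pow_mod] at h
  interval_cases hk : k % 8 <;> simp_all

/-- no element of order 3 normalizes a cyclic group of order 8 -/
theorem no3 {q f : G} (hq : orderOf q = 8) (hf : orderOf f = 3) (h : f * q * f⁻¹ ∈ zpowers q) : False := by
  classical
  rw [mem_zpowers_iff_mem_range_orderOf] at h
  simp only [Finset.mem_image, Finset.mem_range] at h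
  obtain ⟨k, hk, hkq⟩ := h
  have key : ∀ n : ℕ, f ^ n * q * (f ^ n)⁻¹ = q ^ (k ^ n) := by
    intro n
    induction n with
    | zero => simp
    | succ n ih =>
      have e1 : f ^ (n + 1) * q * (f ^ (n + 1))⁻¹ = f ^ n * (f * q * f⁻¹) * (f ^ n)⁻¹ := by
        rw [pow_succ]; group
      rw [e1, ← hkq, ← conj_pow, ih, ← pow_mul, pow_succ]
  have h3 := key 3
  have hf3 : f ^ 3 = 1 := pow_of_ord hf
  rw [hf3] at h3
  simp only [one_mul, inv_one, mul_one] at h3
  have h4 : k ^ 3 ≡ 1 [MOD 8] := by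
    have : q ^ (k ^ 3) = q ^ 1 := by rw [← h3, pow_one]
    rw [pow_eq_pow_iff_modEq, hq] at this
    exact this
  have h5 : q ^ k = q := by
    have : q ^ k = q ^ 1 := by
      rw [pow_eq_pow_iff_modEq, hq]; exact k3 h4
    rw [this, pow_one]
  rw [h5] at hkq
  have h6 : Commute f q := by
    have : f * q = q * f := by
      calc f * q = (f * q * f⁻¹) * f := by group
        _ = q * f := by rw [← hkq]
    exact this
  have h7 := h6.orderOf_mul_eq_mul_orderOf_of_coprime (by rw [hf, hq]; norm_num)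
  have h8 := orders hc (f * q)
  rw [h7, hf, hq] at h8
  revert h8; decide

/-- the elements of `Q` other than `1`, `z` square to `z` -/
theorem Qz_sq {z : G} (hz2 : z * z = 1) (hz1 : z ≠ 1) {q : G} (hq : q ∈ Qz z) (hq1 : q ≠ 1) (hqz : q ≠ z) :
    q * q = z := by
  have hQ := card_Qz hc hz2 hz1
  have hd := orderOf_dvd_card_mem hq
  rw [hQ] at hd
  have h8 := Nat.le_of_dvd (by norm_num) hd
  have hno8 : orderOf q ≠ 8 := by
    intro h
    have heq : zpowers q = Qz z := Subgroup.eq_of_le_of_card_ge (by rw [zpowers_le]; exact hq)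
      (by rw [Nat.card_zpowers, h, hQ])
    haveI : Fact (Nat.Prime 3) := ⟨by norm_num⟩
    obtain ⟨⟨f, hf⟩, hfo⟩ := exists_prime_orderOf_dvd_card' (G := centralizer ({z} : Set G)) 3
      (by rw [C48 hc hz2 hz1]; norm_num)
    rw [orderOf_mk] at hfo
    apply no3 hc h hfo
    rw [heq]
    exact Qz_conj hq (mem_cz.mp hf)
  have h2 : ¬ orderOf q = 2 := by
    intro h
    apply hqz
    exact Qz_inv hc hz2 hz1 hq (by rw [← pow_two]; exact pow_of_ord h) hq1
  have h1 : ¬ orderOf q = 1 := by
    intro h; exact hq1 (orderOf_eq_one_iff.mp h)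
  have h4 : orderOf q = 4 := by
    have h0 := orderOf_pos q
    interval_cases h : orderOf q <;> first | rfl | (exfalso; revert hd; decide) | (exfalso; exact h1 rfl) | (exfalso; exact h2 rfl) | (exfalso; exact hno8 rfl)
  apply Qz_inv hc hz2 hz1 (mul_mem hq hq)
  · have : q ^ 4 = 1 := pow_of_ord h4
    rw [← this]; simp only [pow_succ, pow_zero, one_mul, mul_assoc]
  · intro h
    have : q ^ 2 = 1 := by rw [pow_two]; exact h
    have h5 := orderOf_dvd_of_pow_eq_one this
    rw [h4] at h5; norm_num at h5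

omit [IsSimpleGroup G] hc in
theorem pg_of_dvd {A : Subgroup G} {n : ℕ} (h : Nat.card A ∣ 2 ^ n) : IsPGroup 2 A := by
  obtain ⟨k, _, hk⟩ := (Nat.dvd_prime_pow (by norm_num : Nat.Prime 2)).mp h
  exact IsPGroup.of_card hk

/-- a 2-subgroup of `C(z)` lies in a Sylow 2-subgroup `T ≤ C(z)` having `Q` as a subgroup of index 2, and containing a reflection -/
theorem exists_T_big {z : G} (hz2 : z * z = 1) (hz1 : z ≠ 1) {S : Subgroup G} (hS : IsPGroup 2 S)
    (hSC : S ≤ centralizer ({z} : Set G)) : ∃ T : Sylow 2 G, S ≤ T ∧ z ∈ T ∧ Qz z ≤ T ∧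
      Nat.card (T : Subgroup G) = 2 * Nat.card (Qz z) ∧ (∀ x ∈ T, x * z = z * x) ∧
      ∃ u ∈ T, u * u = 1 ∧ u ≠ 1 ∧ u ≠ z := by
  obtain ⟨E, hE, hSE⟩ := fix_IV hc hz2 hz1 hS hSC
  obtain ⟨T, hzT, hT, hTe⟩ := exists_Tz hc hE
  have hT16 : Nat.card (T : Subgroup G) = 16 := syl2 hc T
  have hcount := refl_count hc hE hzT hT
  obtain ⟨⟨u, huT, hu, hu1, huz⟩⟩ := (Nat.card_pos_iff.mp (by rw [hcount]; norm_num :
    0 < Nat.card {u : G // u ∈ T ∧ u * u = 1 ∧ u ≠ 1 ∧ u ≠ z})).1
  refine ⟨T, ?_, hzT, Qz_le hc hE hTe, by rw [hT16, card_Qz hc hz2 hz1], ?_, u, huT, hu, hu1, huz⟩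
  · rw [hTe]; exact le_inf hSC hSE
  · intro x hx
    have : x ∈ (T : Subgroup G) := hx
    rw [hTe] at this
    exact mem_cz.mp this.1

/-- square roots of `z` lie in `Q` -/
theorem sqrt_mem {z x : G} (hz2 : z * z = 1) (hz1 : z ≠ 1) (hx : x * x = z) : x ∈ Qz z := by
  have hxz : x * z = z * x := by rw [← hx, mul_assoc]
  have ho : orderOf x ∣ 4 := by
    apply orderOf_dvd_of_pow_eq_one
    calc x ^ 4 = (x * x) * (x * x) := by simp only [pow_succ, pow_zero, one_mul, mul_assoc]
      _ = 1 := by rw [hx, hz2]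
  have hS : IsPGroup 2 (zpowers x) := pg_of_dvd (n := 2) (by rw [Nat.card_zpowers]; exact ho)
  obtain ⟨T, hST, hzT, hQT, hcT, hTz, u, huT, hu, hu1, huz⟩ := exists_T_big hc hz2 hz1 hS
    (by rw [zpowers_le]; exact mem_cz.mpr hxz)
  have hxT : x ∈ T := hST (mem_zpowers x)
  have huQ : u ∉ Qz z := fun h => huz (Qz_inv hc hz2 hz1 h hu hu1)
  by_contra hxQ
  have hq := mul_mem_of_index_two' hQT hcT hxT huT hxQ huQ
  have huinv : u⁻¹ = u := inv_eq_of_mul_eq_one_left hu
  have hzinv : z⁻¹ = z := inv_eq_of_mul_eq_one_left hz2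
  have huz' : u * z = z * u := hTz u huT
  have hx' : x = (x * u) * u := by rw [mul_assoc, hu, mul_one]
  by_cases h1 : x * u = 1
  · rw [h1, one_mul] at hx'
    rw [hx', hu] at hx
    exact hz1 hx.symm
  by_cases h2 : x * u = z
  · rw [h2] at hx'
    apply hz1
    rw [← hx, hx']
    calc z * u * (z * u) = z * (u * z) * u := by group
      _ = z * (z * u) * u := by rw [huz']
      _ = (z * z) * (u * u) := by group
      _ = 1 := by rw [hz2, hu, mul_one]
  have h3 := Qz_sq hc hz2 hz1 hq h1 h2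
  -- u commutes with q
  have h4 : (x * u) * u = u * (x * u) := by
    have e1 : (x * u) * u * ((x * u) * u) = (x * u) * (x * u) := by rw [← hx', hx, h3]
    have e2 : u * (x * u) * u = x * u := by
      have : (x * u) * (u * (x * u) * u) = (x * u) * (x * u) := by
        calc (x * u) * (u * (x * u) * u) = (x * u) * u * ((x * u) * u) := by group
          _ = _ := e1
      exact mul_left_cancel this
    calc (x * u) * u = (u * (x * u) * u) * u := by rw [e2]
      _ = u * (x * u) * (u * u) := by group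
      _ = u * (x * u) := by rw [hu, mul_one]
  have h5 : (x * u) * z = z * (x * u) := by
    generalize hw : x * u = w at h3
    rw [← h3, mul_assoc]
  rcases P2 hc hz2 hu huz'.symm hz1 hu1 (Ne.symm huz) h5 h4 with h | h | h | h
  · exact h1 h
  · exact h2 h
  · rw [h] at hq; exact huQ hq
  · rw [h] at hq
    exact huQ ((Subgroup.mul_mem_cancel_left _ (z_mem_Qz hc hz2 hz1)).mp hq)

theorem card_sqrt {z : G} (hz2 : z * z = 1) (hz1 : z ≠ 1) : Nat.card {x : G // x * x = z} = 6 := by
  classical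
  haveI := Fintype.ofFinite G
  have h1 : Nat.card {x : G // x * x = z} = Nat.card {q : Qz z // q ≠ 1 ∧ q ≠ ⟨z, z_mem_Qz hc hz2 hz1⟩} := by
    apply Nat.card_congr
    refine ⟨fun x => ⟨⟨x.1, sqrt_mem hc hz2 hz1 x.2⟩, fun h => ?_, fun h => ?_⟩, fun q => ⟨q.1.1, ?_⟩, fun _ => rfl, fun _ => rfl⟩
    · have h2 : x.1 = 1 := congrArg Subtype.val h
      have h3 := x.2
      rw [h2, mul_one] at h3
      exact hz1 h3.symm
    · have h2 : x.1 = z := congrArg Subtype.val h
      have h3 := x.2
      rw [h2, hz2] at h3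
      exact hz1 h3.symm
    · exact Qz_sq hc hz2 hz1 q.1.2 (fun h => q.2.1 (Subtype.ext h)) (fun h => q.2.2 (Subtype.ext h))
  rw [h1]
  have h2 : Nat.card {q : Qz z // q ≠ 1 ∧ q ≠ ⟨z, z_mem_Qz hc hz2 hz1⟩} =
      ((Finset.univ.erase (1 : Qz z)).erase ⟨z, z_mem_Qz hc hz2 hz1⟩).card := by
    rw [Nat.card_eq_fintype_card, Fintype.card_subtype]
    congr 1
    ext q
    simp only [Finset.mem_filter, Finset.mem_univ, true_and, Finset.mem_erase, and_true]
    exact And.comm
  rw [h2, Finset.card_erase_of_mem, Finset.card_erase_of_mem (Finset.mem_univ _), Finset.card_univ,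
    ← Nat.card_eq_fintype_card, card_Qz hc hz2 hz1]
  simp only [Finset.mem_erase, Finset.mem_univ, and_true]
  intro h
  exact hz1 (congrArg Subtype.val h)

theorem mo_four : mo G 4 = 990 := by
  have h := dc (X := {g : G // orderOf g = 4}) (Y := {g : G // orderOf g = 2}) (fun g z => g.1 ^ 2 = z.1) (a := 1) (b := 6) (by
    intro g
    rw [Nat.card_eq_one_iff_unique]
    have h1 : orderOf (g.1 ^ 2) = 2 := by
      rw [orderOf_pow, g.2]; norm_num
    exact ⟨⟨fun a b => Subtype.ext (Subtype.ext (a.2.symm.trans b.2))⟩, ⟨⟨⟨_, h1⟩, rfl⟩⟩⟩) (by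
    rintro ⟨z, hz⟩
    have hz2 : z * z = 1 := by rw [← pow_two]; exact pow_of_ord hz
    have hz1 : z ≠ 1 := by rintro rfl; rw [orderOf_one] at hz; norm_num at hz
    refine Eq.trans (Nat.card_congr ?_) (card_sqrt hc hz2 hz1)
    refine ⟨fun g => ⟨g.1.1, ?_⟩, fun x => ⟨⟨x.1, ?_⟩, ?_⟩, fun _ => rfl, fun _ => rfl⟩
    · have := g.2
      rw [← pow_two]; exact this
    · have h2 : x.1 ^ 2 = z := by rw [pow_two]; exact x.2
      have h4 : x.1 ^ (2 ^ 2) = 1 := by
        rw [show 2 ^ 2 = 2 * 2 by norm_num, pow_mul, h2, pow_two, hz2]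
      exact orderOf_eq_prime_pow (p := 2) (n := 1) (by rw [pow_one, h2]; exact hz1) h4
    · show x.1 ^ 2 = z
      rw [pow_two]; exact x.2)
  rw [mul_one] at h
  have h3 : Nat.card {g : G // orderOf g = 2} = 165 := mo_two hc
  rw [h3] at h
  exact h

theorem mo_eight : mo G 8 = 1980 := by
  have h1 := mo_total hc
  rw [mo_four hc] at h1
  omega

/-- an element of `C(z)` of order 4 or 8 whose square is not 1 is not centralized by a full Sylow 2-subgroup -/
theorem no_cent16 {z x : G} (hz2 : z * z = 1) (hz1 : z ≠ 1) (hxz : x * z = z * x) (hx : x * x ≠ 1)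
    (hle : centralizer ({x} : Set G) ≤ centralizer ({z} : Set G)) : Nat.card (centralizer ({x} : Set G)) ≠ 16 := by
  intro h
  have hS : IsPGroup 2 (centralizer ({x} : Set G)) := IsPGroup.of_card (n := 4) (by rw [h]; norm_num)
  obtain ⟨T, hST, hzT, hQT, hcT, hTz, u, huT, hu, hu1, huz⟩ := exists_T_big hc hz2 hz1 hS hle
  have hT16 : Nat.card (T : Subgroup G) = 16 := syl2 hc T
  have heq : centralizer ({x} : Set G) = (T : Subgroup G) := Subgroup.eq_of_le_of_card_ge hST (by rw [h, hT16])
  have hux : u * x = x * u := by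
    apply mem_cz.mp
    rw [heq]; exact huT
  rcases P2 hc hz2 hu (hTz u huT).symm hz1 hu1 (Ne.symm huz) hxz hux.symm with h | h | h | h
  · rw [h, mul_one] at hx; exact hx rfl
  · rw [h] at hx; exact hx hz2
  · rw [h] at hx; exact hx hu
  · rw [h] at hx
    apply hx
    have huz' : u * z = z * u := hTz u huT
    calc z * u * (z * u) = z * (u * z) * u := by group
      _ = z * (z * u) * u := by rw [huz']
      _ = (z * z) * (u * u) := by group
      _ = 1 := by rw [hz2, hu, mul_one]

theorem cent_two_part {x : G} (h : orderOf x = 4 ∨ orderOf x = 8) : Nat.card (centralizer ({x} : Set G)) ∣ 16 ∧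
    Nat.card (centralizer ({x} : Set G)) ≠ 16 := by
  obtain ⟨z, hz, hcx⟩ : ∃ z : G, orderOf z = 2 ∧ ∀ y : G, y * x = x * y → y * z = z * y := by
    rcases h with h | h
    · refine ⟨x ^ 2, by rw [orderOf_pow, h]; norm_num, fun y hy => ((show Commute y x from hy).pow_right 2)⟩
    · refine ⟨x ^ 4, by rw [orderOf_pow, h]; norm_num, fun y hy => ((show Commute y x from hy).pow_right 4)⟩
  have hz2 : z * z = 1 := by rw [← pow_two]; exact pow_of_ord hz
  have hz1 : z ≠ 1 := by rintro rfl; rw [orderOf_one] at hz; norm_num at hz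
  have hle : centralizer ({x} : Set G) ≤ centralizer ({z} : Set G) := fun y hy => mem_cz.mpr (hcx y (mem_cz.mp hy))
  have h48 := card_dvd_of_le hle
  rw [C48 hc hz2 hz1] at h48
  have h3 : ¬ 3 ∣ Nat.card (centralizer ({x} : Set G)) := by
    intro h3
    haveI : Fact (Nat.Prime 3) := ⟨by norm_num⟩
    obtain ⟨⟨f, hf⟩, hfo⟩ := exists_prime_orderOf_dvd_card' (G := centralizer ({x} : Set G)) 3 h3
    rw [orderOf_mk] at hfo
    have h6 : Commute f x := mem_cz.mp hf
    have h7 := h6.orderOf_mul_eq_mul_orderOf_of_coprime (by rcases h with h | h <;> rw [hfo, h] <;> norm_num)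
    have h8 := orders hc (f * x)
    rcases h with h | h <;> rw [h7, hfo, h] at h8 <;> revert h8 <;> decide
  have h16 : Nat.card (centralizer ({x} : Set G)) ∣ 16 := by
    have e3 : Nat.Coprime (Nat.card (centralizer ({x} : Set G))) 3 := by
      rw [Nat.coprime_comm]; exact ((by norm_num : Nat.Prime 3).coprime_iff_not_dvd).mpr h3
    exact e3.dvd_of_dvd_mul_right (m := 16) (by norm_num; exact h48)
  refine ⟨h16, no_cent16 hc hz2 hz1 (hcx x rfl).symm.symm (fun h1 => ?_) hle⟩
  have h2 := orderOf_dvd_of_pow_eq_one (x := x) (n := 2) (by rw [pow_two]; exact h1)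
  rcases h with h | h <;> rw [h] at h2 <;> norm_num at h2

omit [IsSimpleGroup G] hc in
theorem ord_dvd_cent (x : G) : orderOf x ∣ Nat.card (centralizer ({x} : Set G)) :=
  orderOf_dvd_card_mem (mem_cz.mpr rfl)

theorem C_eight {x : G} (h : orderOf x = 8) : Nat.card (centralizer ({x} : Set G)) = 8 := by
  obtain ⟨h1, h2⟩ := cent_two_part hc (Or.inr h)
  have h3 := ord_dvd_cent x
  rw [h] at h3
  have h4 := Nat.le_of_dvd (by norm_num) h1
  obtain ⟨k, hk⟩ := h3
  rw [hk] at h1 h2 h4 ⊢
  have : k ≤ 2 := by omega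
  interval_cases k <;> simp_all

omit [IsSimpleGroup G] hc in
theorem class_le_mo (x : G) : Nat.card {y : G // IsConj x y} ≤ mo G (orderOf x) := by
  apply Nat.card_le_card_of_injective (fun y : {y : G // IsConj x y} => (⟨y.1, by
    obtain ⟨g, hg⟩ := isConj_iff.mp y.2
    rw [← hg, orderOf_cj]⟩ : {g : G // orderOf g = orderOf x}))
  intro a b hab
  have h1 : a.1 = b.1 := congrArg (fun w => w.1) hab
  exact Subtype.ext h1

theorem C_four {x : G} (h : orderOf x = 4) : Nat.card (centralizer ({x} : Set G)) = 8 := by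
  obtain ⟨h1, h2⟩ := cent_two_part hc (Or.inl h)
  have h3 := H3.card_isConj_mul_card_centralizer x
  have h5 := class_le_mo x
  rw [h, mo_four hc] at h5
  rw [hc] at h3
  have h4 := Nat.le_of_dvd (by norm_num) h1
  have h6 : 8 ≤ Nat.card (centralizer ({x} : Set G)) := by
    by_contra h7
    push Not at h7
    nlinarith
  interval_cases hk : Nat.card (centralizer ({x} : Set G)) <;> simp_all

theorem C_six {x : G} (h : orderOf x = 6) : Nat.card (centralizer ({x} : Set G)) = 6 := by
  have h3 := ord_dvd_cent x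
  rw [h] at h3
  have o2 : orderOf (x ^ 3) = 2 := by rw [orderOf_pow, h]; norm_num
  have o3 : orderOf (x ^ 2) = 3 := by rw [orderOf_pow, h]; norm_num
  have hz2 : x ^ 3 * x ^ 3 = 1 := by rw [← pow_two]; exact pow_of_ord o2
  have hz1 : x ^ 3 ≠ 1 := by intro h; rw [h, orderOf_one] at o2; norm_num at o2
  have h4 : Nat.card (centralizer ({x} : Set G)) ∣ 48 := by
    rw [← C48 hc hz2 hz1]
    apply card_dvd_of_le
    intro y hy
    exact mem_cz.mpr ((show Commute y x from mem_cz.mp hy).pow_right 3)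
  have h5 : Nat.card (centralizer ({x} : Set G)) ∣ 18 := by
    rw [← C18 hc o3]
    apply card_dvd_of_le
    intro y hy
    exact mem_cz.mpr ((show Commute y x from mem_cz.mp hy).pow_right 2)
  exact Nat.dvd_antisymm ((Nat.dvd_gcd h4 h5).trans (by norm_num)) h3

/-- centralizer orders in terms of element orders -/
def cc (n : ℕ) : ℕ :=
  if n = 1 then 7920 else if n = 2 then 48 else if n = 3 then 18 else if n = 4 then 8 else if n = 5 then 5
  else if n = 6 then 6 else if n = 8 then 8 else 11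

theorem card_cent (x : G) : Nat.card (centralizer ({x} : Set G)) = cc (orderOf x) := by
  have h := orders hc x
  simp only [Finset.mem_insert, Finset.mem_singleton] at h
  rcases h with h | h | h | h | h | h | h | h <;> rw [h]
  · rw [orderOf_eq_one_iff] at h
    subst h
    have : centralizer ({1} : Set G) = ⊤ := by
      rw [eq_top_iff]; intro y _; exact mem_cz.mpr (by simp)
    rw [this, card_top, hc]; rfl
  · rw [C48 hc (by rw [← pow_two]; exact pow_of_ord h) (by rintro rfl; rw [orderOf_one] at h; norm_num at h)]; rfl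
  · rw [C18 hc h]; rfl
  · rw [C_four hc h]; rfl
  · rw [F5 hc x h]; rfl
  · rw [C_six hc h]; rfl
  · rw [C_eight hc h]; rfl
  · rw [F11 hc x h]; rfl

/-- counts of elements -/
def mm (n : ℕ) : ℕ :=
  if n = 1 then 1 else if n = 2 then 165 else if n = 3 then 440 else if n = 4 then 990 else if n = 5 then 1584
  else if n = 6 then 1320 else if n = 8 then 1980 else 1440

theorem mo_eq {n : ℕ} (h : n ∈ ({1, 2, 3, 4, 5, 6, 8, 11} : Finset ℕ)) : mo G n = mm n := by
  simp only [Finset.mem_insert, Finset.mem_singleton] at h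
  rcases h with rfl | rfl | rfl | rfl | rfl | rfl | rfl | rfl
  · exact mo_one
  · exact mo_two hc
  · exact mo_three hc
  · exact mo_four hc
  · exact mo_five hc
  · exact mo_six hc
  · exact mo_eight hc
  · exact mo_eleven hc

theorem sum_ord {M : Type*} [AddCommMonoid M] [Fintype G] (f : ℕ → M) : ∑ g : G, f (orderOf g) =
    ∑ n ∈ ({1, 2, 3, 4, 5, 6, 8, 11} : Finset ℕ), mm n • f n := by
  classical
  rw [← Finset.sum_fiberwise_of_maps_to (s := Finset.univ) (t := ({1, 2, 3, 4, 5, 6, 8, 11} : Finset ℕ)) (g := fun g : G => orderOf g)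
    (fun g _ => orders hc g)]
  apply Finset.sum_congr rfl
  intro n hn
  rw [← mo_eq hc hn, mo, Nat.card_eq_fintype_card, Fintype.card_subtype, ← Finset.sum_const]
  apply Finset.sum_congr rfl
  intro g hg
  rw [(Finset.mem_filter.mp hg).2]

/-- elements of the same order different from 8, 11 are conjugate -/
theorem conj_of_ord {x y : G} (h : orderOf x = orderOf y) (h8 : orderOf x ≠ 8) (h11 : orderOf x ≠ 11) : IsConj x y := by
  have h1 := H3.card_isConj_mul_card_centralizer x
  have h2 := class_le_mo x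
  have h3 := orders hc x
  rw [card_cent hc, hc] at h1
  rw [mo_eq hc h3] at h2
  have h4 : Nat.card {y : G // IsConj x y} = mm (orderOf x) := by
    simp only [Finset.mem_insert, Finset.mem_singleton] at h3
    rcases h3 with h | h | h | h | h | h | h | h <;> rw [h] at h1 h8 h11 ⊢ <;>
      simp [cc, mm] at h1 h8 h11 ⊢ <;> omega
  have hinj : Function.Injective (fun y : {y : G // IsConj x y} => (⟨y.1, by
      obtain ⟨g, hg⟩ := isConj_iff.mp y.2
      rw [← hg, orderOf_cj]⟩ : {g : G // orderOf g = orderOf x})) := by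
    intro a b hab
    have h1 : a.1 = b.1 := congrArg (fun w => w.1) hab
    exact Subtype.ext h1
  have h5 : Nat.card {y : G // IsConj x y} = Nat.card {g : G // orderOf g = orderOf x} := by
    rw [h4]; exact (mo_eq hc h3).symm
  have hbij := (Nat.bijective_iff_injective_and_card _).mpr ⟨hinj, h5⟩
  obtain ⟨⟨w, hw⟩, hwy⟩ := hbij.2 ⟨y, h.symm⟩
  have h6 : w = y := congrArg (fun w => w.1) hwy
  rw [h6] at hw
  exact hw

end three

end Cfsg.Agent.H21.MA
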