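import Cfsg.Agent.H21.MB1

set_option autoImplicit false
set_option linter.unusedSectionVars false
set_option linter.unusedVariables false
set_option linter.style.haveILetI false

/-! Real classes of the simple group of order 7920. -/

namespace Cfsg.Agent.H21.MA

open Subgroup MulAction Cfsg
open scoped Pointwise

theorem mem_nz {G : Type*} [Group G] [Finite G] {x g : G} (h : x * g * x⁻¹ ∈ zpowers g) :
    x ∈ normalizer ((zpowers g : Subgroup G) : Set G) := by
  have h1 : zpowers (x * g * x⁻¹) = zpowers g := Subgroup.eq_of_le_of_card_ge (by rw [zpowers_le]; exact h)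
    (by rw [Nat.card_zpowers, Nat.card_zpowers, orderOf_cj])
  rw [mem_normalizer_iff]
  intro y
  constructor
  · intro hy
    obtain ⟨k, rfl⟩ := mem_zpowers_iff.mp hy
    rw [← conj_zpow]
    exact zpow_mem h k
  · intro hy
    have hy' : x * y * x⁻¹ ∈ zpowers g := hy
    rw [← h1] at hy'
    obtain ⟨k, hk⟩ := mem_zpowers_iff.mp hy'
    rw [conj_zpow] at hk
    have : y = g ^ k := by
      have := mul_right_cancel (mul_left_cancel (by simpa only [mul_assoc] using hk : x * (g ^ k * x⁻¹) = x * (y * x⁻¹)))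
      exact this.symm
    rw [this]
    exact zpow_mem (mem_zpowers g) k

section three
variable {G : Type*} [Group G] [Finite G] [IsSimpleGroup G] (hc : Nat.card G = 7920)
include hc

theorem nonreal11 {g : G} (hg : orderOf g = 11) : ¬ IsConj g g⁻¹ := by
  intro h
  obtain ⟨x, hx⟩ := isConj_iff.mp h
  have hN := F11n hc g hg
  have hgN : g ∈ normalizer ((zpowers g : Subgroup G) : Set G) := le_normalizer (mem_zpowers g)
  have hxN : x ∈ normalizer ((zpowers g : Subgroup G) : Set G) := by
    apply mem_nz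
    rw [hx]; exact inv_mem (mem_zpowers g)
  have h1 := H3.eq_one_of_isConj_inv_of_odd (G := normalizer ((zpowers g : Subgroup G) : Set G))
    (by rw [hN]; decide) ⟨g, hgN⟩ (isConj_iff.mpr ⟨⟨x, hxN⟩, Subtype.ext hx⟩)
  have h2 : g = 1 := congrArg Subtype.val h1
  rw [h2, orderOf_one] at hg
  norm_num at hg

theorem nonreal8 {g : G} (hg : orderOf g = 8) : ¬ IsConj g g⁻¹ := by
  classical
  intro hgg
  obtain ⟨h, hh⟩ := isConj_iff.mp hgg
  have hz : orderOf (g ^ 4) = 2 := by rw [orderOf_pow, hg]; norm_num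
  set z := g ^ 4 with hzdef
  have hz2 : z * z = 1 := by rw [← pow_two]; exact pow_of_ord hz
  have hz1 : z ≠ 1 := by intro h; rw [h, orderOf_one] at hz; norm_num at hz
  have hg1 : g ≠ 1 := by rintro rfl; rw [orderOf_one] at hg; norm_num at hg
  set N := normalizer ((zpowers g : Subgroup G) : Set G) with hNdef
  have hgN : g ∈ N := le_normalizer (mem_zpowers g)
  have hhN : h ∈ N := by
    apply mem_nz
    rw [hh]; exact inv_mem (mem_zpowers g)
  have hNz : N ≤ centralizer ({z} : Set G) := by
    intro y hy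
    have h1 : y * g * y⁻¹ ∈ zpowers g := (mem_normalizer_iff.mp hy g).mp (mem_zpowers g)
    rw [mem_zpowers_iff_mem_range_orderOf] at h1
    simp only [Finset.mem_image, Finset.mem_range] at h1
    obtain ⟨k, hk, hkg⟩ := h1
    have h2 : y * z * y⁻¹ = z ^ k := by
      rw [hzdef, ← conj_pow, ← hkg, ← pow_mul, ← pow_mul, mul_comm]
    have h3 : z ^ k = 1 ∨ z ^ k = z := by
      rcases Nat.even_or_odd' k with ⟨j, rfl | rfl⟩
      · left; rw [pow_mul, pow_two, hz2, one_pow]
      · right; rw [pow_succ, pow_mul, pow_two, hz2, one_pow, one_mul]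
    rcases h3 with h3 | h3
    · exfalso
      rw [h3] at h2
      apply hz1
      calc z = y⁻¹ * (y * z * y⁻¹) * y := by group
        _ = 1 := by rw [h2]; group
    · rw [h3] at h2
      apply mem_cz.mpr
      calc y * z = (y * z * y⁻¹) * y := by group
        _ = z * y := by rw [h2]
  have h48 := card_dvd_of_le hNz
  rw [C48 hc hz2 hz1] at h48
  have h3 : ¬ 3 ∣ Nat.card N := by
    intro h3
    haveI : Fact (Nat.Prime 3) := ⟨by norm_num⟩
    obtain ⟨⟨f, hf⟩, hfo⟩ := exists_prime_orderOf_dvd_card' (G := N) 3 h3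
    rw [orderOf_mk] at hfo
    exact no3 hc hg hfo ((mem_normalizer_iff.mp hf g).mp (mem_zpowers g))
  have h16 : Nat.card N ∣ 2 ^ 4 := by
    have e3 : Nat.Coprime (Nat.card N) 3 := by
      rw [Nat.coprime_comm]; exact ((by norm_num : Nat.Prime 3).coprime_iff_not_dvd).mpr h3
    exact e3.dvd_of_dvd_mul_right (m := 16) (by norm_num; exact h48)
  obtain ⟨T, hST, hzT, hQT, hcT, hTz, -⟩ := exists_T_big hc hz2 hz1 (pg_of_dvd h16) hNz
  have hgz : g * z = z * g := by rw [hzdef, ← pow_succ, ← pow_succ']
  have hgQ : g ∉ Qz z := by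
    intro h1
    have h2 := Qz_sq hc hz2 hz1 h1 hg1 (by
      intro h4; rw [← h4, hg] at hz; norm_num at hz)
    have h4 : orderOf (g ^ 2) = 2 := by rw [pow_two, h2]; exact hz
    rw [orderOf_pow, hg] at h4
    norm_num at h4
  have hncomm : h * g ≠ g * h := by
    intro h1
    have h2 : g⁻¹ = g := by rw [← hh, h1]; group
    have h4 : g ^ 2 = 1 := by
      rw [pow_two]; nth_rewrite 1 [← h2]; exact inv_mul_cancel g
    have h5 := orderOf_dvd_of_pow_eq_one h4
    rw [hg] at h5; norm_num at h5
  have hghg : g * (h * g) = h := by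
    have : h * g = g⁻¹ * h := by rw [← hh]; group
    rw [this]; group
  have hsq : (h * g) * (h * g) = h * h := by
    rw [mul_assoc, hghg]
  have hh2 : (h * h) * g = g * (h * h) := by
    have h1 : h * g⁻¹ * h⁻¹ = g := by
      have : h * g⁻¹ * h⁻¹ = (h * g * h⁻¹)⁻¹ := by group
      rw [this, hh, inv_inv]
    calc (h * h) * g = h * (h * g * h⁻¹) * h⁻¹ * (h * h) := by group
      _ = h * g⁻¹ * h⁻¹ * (h * h) := by rw [hh]
      _ = g * (h * h) := by rw [h1]
  have hhz : h * h ∈ zpowers g := by
    have heq : zpowers g = centralizer ({g} : Set G) := Subgroup.eq_of_le_of_card_ge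
      (by rw [zpowers_le]; exact mem_cz.mpr rfl) (by rw [C_eight hc hg, Nat.card_zpowers, hg])
    rw [heq]; exact mem_cz.mpr hh2
  rw [mem_zpowers_iff_mem_range_orderOf] at hhz
  simp only [Finset.mem_image, Finset.mem_range] at hhz
  obtain ⟨i, hi, hig⟩ := hhz
  rw [hg] at hi
  have h5 : g ^ (2 * i) = 1 := by
    have e1 : h * g ^ i * h⁻¹ = g ^ i := by rw [hig]; group
    rw [← conj_pow, hh, inv_pow] at e1
    rw [two_mul, pow_add]
    nth_rewrite 1 [← e1]
    exact inv_mul_cancel _
  rw [← orderOf_dvd_iff_pow_eq_one, hg] at h5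
  have hi4 : i = 0 ∨ i = 4 := by omega
  rcases hi4 with rfl | rfl
  · rw [pow_zero] at hig
    have hhQ : h ∉ Qz z := by
      intro h1
      by_cases h2 : h = 1
      · exact hncomm (by rw [h2]; simp)
      · have := Qz_inv hc hz2 hz1 h1 hig.symm h2
        exact hncomm (by rw [this]; exact hgz.symm)
    have hhgQ : h * g ∉ Qz z := by
      intro h1
      by_cases h2 : h * g = 1
      · have : h = g⁻¹ := eq_inv_of_mul_eq_one_left h2
        exact hncomm (by rw [this]; simp)
      · have h4 := Qz_inv hc hz2 hz1 h1 (by rw [hsq, ← hig]) h2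
        apply hncomm
        have h6 : h = z * g⁻¹ := by rw [← h4]; group
        rw [h6]
        calc z * g⁻¹ * g = z := by group
          _ = g * z * g⁻¹ := by rw [hgz]; group
          _ = g * (z * g⁻¹) := by group
    have h6 := mul_mem_of_index_two' hQT hcT (hST hhN) (mul_mem (hST hhN) (hST hgN)) hhQ hhgQ
    rw [← mul_assoc, ← hig, one_mul] at h6
    exact hgQ h6
  · have h1 := sqrt_mem hc hz2 hz1 (x := h) hig.symm
    have h2 := sqrt_mem hc hz2 hz1 (x := h * g) (by rw [hsq]; exact hig.symm)
    exact hgQ ((Subgroup.mul_mem_cancel_left _ h1).mp h2)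

theorem real_iff (g : G) : IsConj g g⁻¹ ↔ orderOf g ≠ 8 ∧ orderOf g ≠ 11 := by
  constructor
  · intro h
    exact ⟨fun h8 => nonreal8 hc h8 h, fun h11 => nonreal11 hc h11 h⟩
  · intro h
    exact conj_of_ord hc (orderOf_inv g).symm h.1 h.2

theorem card_classes : Nat.card (ConjClasses G) = 10 := by
  classical
  haveI := Fintype.ofFinite G
  haveI := Fintype.ofFinite (ConjClasses G)
  have h := H3.sum_conjClasses_eq (G := G) (fun _ => (1 : ℂ))
  simp only [card_cent hc, mul_one] at h
  have h2 := sum_ord hc (f := fun n => (cc n : ℂ))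
  rw [h2] at h
  simp only [Finset.sum_const, Finset.card_univ, nsmul_eq_mul, mul_one, hc] at h
  rw [Finset.sum_insert (by decide), Finset.sum_insert (by decide), Finset.sum_insert (by decide),
    Finset.sum_insert (by decide), Finset.sum_insert (by decide), Finset.sum_insert (by decide),
    Finset.sum_insert (by decide), Finset.sum_singleton] at h
  norm_num [mm, cc] at h
  rw [Nat.card_eq_fintype_card]
  have h4 : 79200 = 7920 * Fintype.card (ConjClasses G) := by exact_mod_cast h
  omega

theorem card_real : Nat.card {C : ConjClasses G // H3.classInv G C = C} = 6 := by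
  classical
  haveI := Fintype.ofFinite G
  haveI := Fintype.ofFinite (ConjClasses G)
  have h := H3.sum_conjClasses_eq (G := G) (fun C => if H3.classInv G C = C then (1 : ℂ) else 0)
  have e1 : ∀ g : G, (Nat.card (Subgroup.centralizer ({g} : Set G)) : ℂ) *
      (if H3.classInv G (ConjClasses.mk g) = ConjClasses.mk g then (1 : ℂ) else 0) =
      if orderOf g ≠ 8 ∧ orderOf g ≠ 11 then (cc (orderOf g) : ℂ) else 0 := by
    intro g
    rw [card_cent hc, H3.classInv_mk]
    have h1 := real_iff hc g
    by_cases h2 : orderOf g ≠ 8 ∧ orderOf g ≠ 11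
    · rw [if_pos (ConjClasses.mk_eq_mk_iff_isConj.mpr (h1.mpr h2).symm), if_pos h2, mul_one]
    · rw [if_neg (fun h3 => h2 (h1.mp (ConjClasses.mk_eq_mk_iff_isConj.mp h3).symm)), if_neg h2, mul_zero]
  have h2 : ∑ g : G, (if orderOf g ≠ 8 ∧ orderOf g ≠ 11 then (cc (orderOf g) : ℂ) else 0) = _ :=
    sum_ord hc (f := fun n => if n ≠ 8 ∧ n ≠ 11 then (cc n : ℂ) else 0)
  rw [Finset.sum_congr rfl (fun g _ => e1 g), h2, Finset.sum_boole, hc,
    Finset.sum_insert (by decide), Finset.sum_insert (by decide), Finset.sum_insert (by decide),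
    Finset.sum_insert (by decide), Finset.sum_insert (by decide), Finset.sum_insert (by decide),
    Finset.sum_insert (by decide), Finset.sum_singleton] at h
  norm_num [mm, cc] at h
  rw [Nat.card_eq_fintype_card, Fintype.card_subtype]
  have h4 : 47520 = 7920 * (Finset.univ.filter (fun C : ConjClasses G => H3.classInv G C = C)).card := by exact_mod_cast h
  omega

end three

end Cfsg.Agent.H21.MA
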