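import Cfsg.Agent.H21.MB2
import Cfsg.Agent.H3.Perm
import Cfsg.Agent.H9.SymSq

set_option autoImplicit false
set_option linter.unusedSectionVars false
set_option linter.unusedVariables false
set_option linter.style.haveILetI false

/-! Fixed points of the simple group of order 7920 on 11 points. -/

namespace Cfsg.Agent.H21.MA

open Subgroup MulAction Cfsg
open scoped Pointwise

noncomputable def fx {G : Type*} (X : Type*) [Group G] [MulAction G X] (g : G) : ℕ := Nat.card (fixedBy X g)

theorem fx_conj {G X : Type*} [Group G] [MulAction G X] [Finite X] {g h : G} (hgh : IsConj g h) : fx X g = fx X h := by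
  have h1 := H3.classFun_isConj (H3.char_classFun (H3.isChar_permChar (G := G) X)) hgh
  unfold H3.permChar at h1
  exact_mod_cast h1

theorem fx_mod {G X : Type*} [Group G] [MulAction G X] [Finite G] [Finite X] {p n : ℕ} [Fact p.Prime] {g : G}
    (hg : orderOf g = p ^ n) : Nat.card X ≡ fx X g [MOD p] := by
  have hP : IsPGroup p (zpowers g) := IsPGroup.of_card (n := n) (by rw [Nat.card_zpowers, hg])
  have h1 := hP.card_modEq_card_fixedPoints X
  have h2 : Nat.card (fixedPoints (zpowers g) X) = fx X g := by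
    apply Nat.card_congr
    apply Equiv.setCongr
    ext x
    constructor
    · intro hx
      exact hx ⟨g, mem_zpowers g⟩
    · rintro hx ⟨y, hy⟩
      obtain ⟨k, rfl⟩ := mem_zpowers_iff.mp hy
      show g ^ k • x = x
      have h3 : g ∈ stabilizer G x := hx
      exact zpow_mem h3 k
  rw [h2] at h1
  exact h1

theorem fx_pow_le {G X : Type*} [Group G] [MulAction G X] [Finite X] (g : G) (n : ℕ) : fx X g ≤ fx X (g ^ n) := by
  apply Nat.card_le_card_of_injective (fun x : fixedBy X g => (⟨x.1, by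
    have h3 : g ∈ stabilizer G x.1 := x.2
    exact pow_mem h3 n⟩ : fixedBy X (g ^ n)))
  intro a b hab
  have h1 : a.1 = b.1 := congrArg (fun w => w.1) hab
  exact Subtype.ext h1

theorem fx_le {G X : Type*} [Group G] [MulAction G X] [Finite X] (d : Sh G X) {g : G} (hg : g ≠ 1) : fx X g ≤ 3 := by
  by_contra h
  push Not at h
  haveI := Fintype.ofFinite (fixedBy X g)
  obtain ⟨f⟩ : Nonempty (Fin 4 ↪ fixedBy X g) := by
    apply Function.Embedding.nonempty_of_card_le
    rw [Fintype.card_fin, ← Nat.card_eq_fintype_card]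
    exact h
  apply hg
  apply d.s4 (fun i => (f i).1)
  · intro i j hij
    exact f.injective (Subtype.ext hij)
  · intro i
    exact (f i).2

theorem fx_ge3 {G X : Type*} [Group G] [MulAction G X] [Finite X] (d : Sh G X) {u : G} {x : Fin 3 → X}
    (hx : Function.Injective x) (hu : ∀ i, u • x i = x i) : 3 ≤ fx X u := by
  have h1 : Nat.card (Fin 3) = 3 := by simp
  rw [← h1]
  apply Nat.card_le_card_of_injective (fun i : Fin 3 => (⟨x i, hu i⟩ : fixedBy X u))
  intro i j hij
  exact hx (congrArg (fun w => w.1) hij)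

/-- the numbers of fixed points -/
def ff (n : ℕ) : ℕ :=
  if n = 1 then 11 else if n = 2 then 3 else if n = 3 then 2 else if n = 4 then 3 else if n = 5 then 1
  else if n = 6 then 0 else if n = 8 then 1 else 0

section three
variable {G : Type*} [Group G] [Finite G] [IsSimpleGroup G] (hc : Nat.card G = 7920)
include hc

theorem sum_eight {M : Type*} [AddCommMonoid M] [Fintype G] (F : G → M) (f : ℕ → M)
    (h : ∀ g : G, orderOf g ≠ 8 → F g = f (orderOf g)) : ∑ g : G, F g =
    (∑ n ∈ ({1, 2, 3, 4, 5, 6, 11} : Finset ℕ), mm n • f n) + ∑ g : G with orderOf g = 8, F g := by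
  classical
  have h1 : ∀ g : G, F g = (if orderOf g = 8 then 0 else f (orderOf g)) + (if orderOf g = 8 then F g else 0) := by
    intro g
    by_cases h8 : orderOf g = 8
    · rw [if_pos h8, if_pos h8, zero_add]
    · rw [if_neg h8, if_neg h8, add_zero, h g h8]
  rw [Finset.sum_congr rfl (fun g _ => h1 g), Finset.sum_add_distrib, Finset.sum_filter]
  congr 1
  have h2 : ∑ g : G, (if orderOf g = 8 then 0 else f (orderOf g)) = _ := sum_ord hc (f := fun n => if n = 8 then 0 else f n)
  rw [h2]
  have h3 : ({1, 2, 3, 4, 5, 6, 8, 11} : Finset ℕ) = insert 8 ({1, 2, 3, 4, 5, 6, 11} : Finset ℕ) := by decide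
  rw [h3, Finset.sum_insert (by decide)]
  simp only [if_true, smul_zero, zero_add]
  apply Finset.sum_congr rfl
  intro n hn
  have : n ≠ 8 := by rintro rfl; revert hn; decide
  rw [if_neg this]

theorem exists_fx : ∃ (M : Subgroup G), Sh G (G ⧸ M) ∧ ∀ g : G, fx (G ⧸ M) g = ff (orderOf g) := by
  classical
  haveI := Fintype.ofFinite G
  obtain ⟨M, d⟩ := exists_Sh hc
  refine ⟨M, d, ?_⟩
  have h11 : Nat.card (G ⧸ M) = 11 := d.h11
  have hone : ∀ g : G, orderOf g = 1 → fx (G ⧸ M) g = 11 := by
    intro g hg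
    rw [orderOf_eq_one_iff] at hg
    subst hg
    rw [← h11]
    apply Nat.card_congr
    exact (Equiv.setCongr (by ext x; simp [mem_fixedBy])).trans (Equiv.Set.univ _)
  have htwo : ∀ g : G, orderOf g = 2 → fx (G ⧸ M) g = 3 := by
    intro g hg
    obtain ⟨f⟩ : Nonempty (Fin 3 ↪ G ⧸ M) := by
      haveI := Fintype.ofFinite (G ⧸ M)
      apply Function.Embedding.nonempty_of_card_le
      rw [Fintype.card_fin, ← Nat.card_eq_fintype_card, h11]
      norm_num
    obtain ⟨u, hu, hu1, huf⟩ := d.ex3 f f.injective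
    have h1 := one_class' hc hg (orderOf_two hu hu1)
    rw [fx_conj h1]
    exact le_antisymm (fx_le d hu1) (fx_ge3 d f.injective huf)
  have hthree : ∀ g : G, orderOf g = 3 → fx (G ⧸ M) g = 2 := by
    intro g hg
    haveI : Fact (Nat.Prime 3) := ⟨by norm_num⟩
    have h1 := fx_mod (X := G ⧸ M) (p := 3) (n := 1) (g := g) (by rw [hg]; norm_num)
    have h2 := fx_le d (ne_one_of_ord hc hg (by norm_num))
    rw [h11] at h1
    unfold Nat.ModEq at h1
    omega
  have hfive : ∀ g : G, orderOf g = 5 → fx (G ⧸ M) g = 1 := by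
    intro g hg
    haveI : Fact (Nat.Prime 5) := ⟨by norm_num⟩
    have h1 := fx_mod (X := G ⧸ M) (p := 5) (n := 1) (g := g) (by rw [hg]; norm_num)
    have h2 := fx_le d (ne_one_of_ord hc hg (by norm_num))
    rw [h11] at h1
    unfold Nat.ModEq at h1
    omega
  have heleven : ∀ g : G, orderOf g = 11 → fx (G ⧸ M) g = 0 := by
    intro g hg
    haveI : Fact (Nat.Prime 11) := ⟨by norm_num⟩
    have h1 := fx_mod (X := G ⧸ M) (p := 11) (n := 1) (g := g) (by rw [hg]; norm_num)
    have h2 := fx_le d (ne_one_of_ord hc hg (by norm_num))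
    rw [h11] at h1
    unfold Nat.ModEq at h1
    omega
  obtain ⟨x4, hx4⟩ := mo_pos (G := G) (n := 4) (by rw [mo_four hc]; norm_num)
  obtain ⟨x6, hx6⟩ := mo_pos (G := G) (n := 6) (by rw [mo_six hc]; norm_num)
  haveI : Fact (Nat.Prime 2) := ⟨by norm_num⟩
  have hfour : ∀ g : G, orderOf g = 4 → fx (G ⧸ M) g = fx (G ⧸ M) x4 := by
    intro g hg
    exact fx_conj (conj_of_ord hc (by rw [hg, hx4]) (by rw [hg]; norm_num) (by rw [hg]; norm_num))
  have hsix : ∀ g : G, orderOf g = 6 → fx (G ⧸ M) g = fx (G ⧸ M) x6 := by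
    intro g hg
    exact fx_conj (conj_of_ord hc (by rw [hg, hx6]) (by rw [hg]; norm_num) (by rw [hg]; norm_num))
  set c4 := fx (G ⧸ M) x4 with hc4
  set c6 := fx (G ⧸ M) x6 with hc6
  have h4 : c4 = 1 ∨ c4 = 3 := by
    have h1 := fx_mod (X := G ⧸ M) (p := 2) (n := 2) (g := x4) (by rw [hx4]; norm_num)
    have h2 := fx_le d (ne_one_of_ord hc hx4 (by norm_num))
    rw [h11] at h1
    unfold Nat.ModEq at h1
    omega
  have h6 : c6 ≤ 2 := by
    have h1 := fx_pow_le (X := G ⧸ M) x6 2
    rw [hthree (x6 ^ 2) (by rw [orderOf_pow, hx6]; norm_num)] at h1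
    exact h1
  have h8 : ∀ g : G, orderOf g = 8 → 1 ≤ fx (G ⧸ M) g ∧ fx (G ⧸ M) g ≤ c4 := by
    intro g hg
    constructor
    · have h1 := fx_mod (X := G ⧸ M) (p := 2) (n := 3) (g := g) (by rw [hg]; norm_num)
      rw [h11] at h1
      unfold Nat.ModEq at h1
      omega
    · have h1 := fx_pow_le (X := G ⧸ M) g 2
      rw [hfour (g ^ 2) (by rw [orderOf_pow, hg]; norm_num)] at h1
      exact h1
  set f : ℕ → ℕ := fun n => if n = 1 then 11 else if n = 2 then 3 else if n = 3 then 2 else if n = 4 then c4 else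
    if n = 5 then 1 else if n = 6 then c6 else 0 with hf
  have hF : ∀ g : G, orderOf g ≠ 8 → fx (G ⧸ M) g = f (orderOf g) := by
    intro g hg8
    have h := orders hc g
    simp only [Finset.mem_insert, Finset.mem_singleton] at h
    rcases h with h | h | h | h | h | h | h | h
    · rw [hone g h, h]; simp [f]
    · rw [htwo g h, h]; simp [f]
    · rw [hthree g h, h]; simp [f]
    · rw [hfour g h, h]; simp [f]
    · rw [hfive g h, h]; simp [f]
    · rw [hsix g h, h]; simp [f]
    · exact absurd h hg8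
    · rw [heleven g h, h]; simp [f]
  have hsum := sum_eight hc (fun g => fx (G ⧸ M) g) f hF
  have htot : ∑ g : G, fx (G ⧸ M) g = 7920 := by
    have h1 := H3.sum_permChar (G := G) (G ⧸ M)
    rw [H3.card_orbits_eq_one, hc] at h1
    unfold H3.permChar at h1
    have h2 : ((∑ g : G, fx (G ⧸ M) g : ℕ) : ℂ) = ((7920 : ℕ) : ℂ) := by
      push_cast
      rw [show (∑ g : G, (fx (G ⧸ M) g : ℂ)) = _ from h1]; norm_num
    exact_mod_cast h2
  have hcard8 : (Finset.univ.filter (fun g : G => orderOf g = 8)).card = 1980 := by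
    rw [← mo_eight hc, mo, Nat.card_eq_fintype_card, Fintype.card_subtype]
  have hlo : 1980 ≤ ∑ g : G with orderOf g = 8, fx (G ⧸ M) g := by
    rw [← hcard8, Finset.card_eq_sum_ones]
    apply Finset.sum_le_sum
    intro g hg
    exact (h8 g (Finset.mem_filter.mp hg).2).1
  have hhi : ∑ g : G with orderOf g = 8, fx (G ⧸ M) g ≤ 1980 * c4 := by
    rw [← hcard8, ← smul_eq_mul, ← Finset.sum_const]
    apply Finset.sum_le_sum
    intro g hg
    exact (h8 g (Finset.mem_filter.mp hg).2).2
  rw [htot, Finset.sum_insert (by decide), Finset.sum_insert (by decide), Finset.sum_insert (by decide),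
    Finset.sum_insert (by decide), Finset.sum_insert (by decide), Finset.sum_insert (by decide), Finset.sum_singleton] at hsum
  simp [mm, f] at hsum
  have hres : c4 = 3 ∧ c6 = 0 ∧ ∑ g : G with orderOf g = 8, fx (G ⧸ M) g = 1980 := by
    rcases h4 with h4 | h4 <;> rw [h4] at hsum hhi ⊢ <;> interval_cases c6 <;> omega
  have h8' : ∀ g : G, orderOf g = 8 → fx (G ⧸ M) g = 1 := by
    have h1 : ∑ g : G with orderOf g = 8, 1 = ∑ g : G with orderOf g = 8, fx (G ⧸ M) g := by
      rw [hres.2.2, ← Finset.card_eq_sum_ones, hcard8]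
    have h2 := (Finset.sum_eq_sum_iff_of_le (fun g hg => (h8 g (Finset.mem_filter.mp hg).2).1)).mp h1
    intro g hg
    exact (h2 g (Finset.mem_filter.mpr ⟨Finset.mem_univ _, hg⟩)).symm
  intro g
  have h := orders hc g
  simp only [Finset.mem_insert, Finset.mem_singleton] at h
  rcases h with h | h | h | h | h | h | h | h
  · rw [hone g h, h]; rfl
  · rw [htwo g h, h]; rfl
  · rw [hthree g h, h]; rfl
  · rw [hfour g h, h, hres.1]; rfl
  · rw [hfive g h, h]; rfl
  · rw [hsix g h, h, hres.2.1]; rfl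
  · rw [h8' g h, h]; rfl
  · rw [heleven g h, h]; rfl

end three

end Cfsg.Agent.H21.MA
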