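import Cfsg.Agent.H21.MB3
import Cfsg.Agent.H27.CentralChar

set_option autoImplicit false
set_option linter.unusedSectionVars false
set_option linter.unusedVariables false
set_option linter.style.haveILetI false

/-! Rational irreducible characters of the simple group of order 7920. -/

namespace Cfsg.Agent.H21.MA

open Subgroup MulAction Cfsg
open scoped Pointwise ComplexConjugate

/-- values of the character of degree 10 -/
def v10 (n : ℕ) : ℤ :=
  if n = 1 then 10 else if n = 2 then 2 else if n = 3 then 1 else if n = 4 then 2 else if n = 5 then 0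
  else if n = 6 then -1 else if n = 8 then 0 else -1

/-- values of the character of degree 45 -/
def v45 (n : ℕ) : ℤ :=
  if n = 1 then 45 else if n = 2 then -3 else if n = 3 then 0 else if n = 4 then 1 else if n = 5 then 0
  else if n = 6 then 0 else if n = 8 then -1 else 1

/-- values of the character of degree 44 -/
def v44 (n : ℕ) : ℤ :=
  if n = 1 then 44 else if n = 2 then 4 else if n = 3 then -1 else if n = 4 then 0 else if n = 5 then -1
  else if n = 6 then 1 else if n = 8 then 0 else 0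

section three
variable {G : Type*} [Group G] [Finite G] [IsSimpleGroup G] (hc : Nat.card G = 7920)
include hc

theorem inner_ord [Fintype G] {a b : G → ℂ} (v w : ℕ → ℤ) (ha : ∀ g, a g = v (orderOf g)) (hb : ∀ g, b g = w (orderOf g)) :
    classInner a b = (7920 : ℂ)⁻¹ * ((∑ n ∈ ({1, 2, 3, 4, 5, 6, 8, 11} : Finset ℕ), (mm n : ℤ) * (v n * w n) : ℤ) : ℂ) := by
  unfold classInner
  rw [hc]
  congr 1
  have h1 : ∀ g : G, a g * conj (b g) = (fun n => ((v n * w n : ℤ) : ℂ)) (orderOf g) := by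
    intro g
    rw [ha, hb]
    simp
  rw [Finset.sum_congr rfl (fun g _ => h1 g), sum_ord hc (f := fun n => ((v n * w n : ℤ) : ℂ))]
  push_cast
  apply Finset.sum_congr rfl
  intro n _
  rw [nsmul_eq_mul]

theorem inner_one_of [Fintype G] {a b : G → ℂ} (v w : ℕ → ℤ) (ha : ∀ g, a g = v (orderOf g)) (hb : ∀ g, b g = w (orderOf g))
    (h : ∑ n ∈ ({1, 2, 3, 4, 5, 6, 8, 11} : Finset ℕ), (mm n : ℤ) * (v n * w n) = 7920) : classInner a b = 1 := by
  rw [inner_ord hc v w ha hb, h]
  norm_num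

theorem cases8 (P : ℕ → Prop) (h1 : P 1) (h2 : P 2) (h3 : P 3) (h4 : P 4) (h5 : P 5) (h6 : P 6) (h8 : P 8) (h11 : P 11) (g : G) :
    P (orderOf g) := by
  have h := orders hc g
  simp only [Finset.mem_insert, Finset.mem_singleton] at h
  rcases h with h | h | h | h | h | h | h | h <;> rw [h] <;> assumption

/-- the three nontrivial rational characters of degree 10, 45, 44 -/
theorem exists_rat : ∃ a b c : IrrCharacter G, (∀ g, (a : G → ℂ) g = v10 (orderOf g)) ∧
    (∀ g, (b : G → ℂ) g = v45 (orderOf g)) ∧ (∀ g, (c : G → ℂ) g = v44 (orderOf g)) := by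
  classical
  haveI := Fintype.ofFinite G
  obtain ⟨M, d, hfx⟩ := exists_fx hc
  set π := H3.permChar G (G ⧸ M) with hπ
  have hπc : IsCharacter G π := H3.isChar_permChar (G := G) (G ⧸ M)
  have hπv : ∀ g, π g = (ff (orderOf g) : ℂ) := by
    intro g
    rw [← hfx g]; rfl
  set a : G → ℂ := π - (fun _ => 1) with ha
  have hav : ∀ g, a g = v10 (orderOf g) := by
    intro g
    have h1 : a g = π g - 1 := rfl
    rw [h1, hπv]
    refine cases8 hc (fun n => (ff n : ℂ) - 1 = (v10 n : ℂ)) ?_ ?_ ?_ ?_ ?_ ?_ ?_ ?_ g <;> norm_num [ff, v10]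
  have haI : IsIrrCharacter G a := by
    apply H3.isIrr_of_gen (H3.isGen_sub (H3.isGen_of_char hπc) H3.isGen_one)
    · exact inner_one_of hc v10 v10 hav hav (by decide)
    · show 0 < (a 1).re
      rw [hav, orderOf_one]; norm_num [v10]
  have hac := H3.irr_isChar haI
  have hsq : ∀ g : G, orderOf (g * g) = orderOf g / Nat.gcd (orderOf g) 2 := by
    intro g
    rw [← pow_two, orderOf_pow]
  set b : G → ℂ := H9.altSq a with hb
  have hbv : ∀ g, b g = v45 (orderOf g) := by
    intro g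
    have h1 : b g = (a g ^ 2 - a (g * g)) / 2 := rfl
    rw [h1, hav, hav, hsq]
    refine cases8 hc (fun n => ((v10 n : ℂ) ^ 2 - (v10 (n / Nat.gcd n 2) : ℂ)) / 2 = (v45 n : ℂ)) ?_ ?_ ?_ ?_ ?_ ?_ ?_ ?_ g <;>
      norm_num [v10, v45]
  have hbI : IsIrrCharacter G b := by
    apply H3.isIrr_of_gen (H3.isGen_of_char (H9.isChar_altSq hac))
    · exact inner_one_of hc v45 v45 hbv hbv (by decide)
    · show 0 < (b 1).re
      rw [hbv, orderOf_one]; norm_num [v45]
  set c : G → ℂ := H9.symSq a - (fun _ => 1) - a with hcd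
  have hcv : ∀ g, c g = v44 (orderOf g) := by
    intro g
    have h1 : c g = (a g ^ 2 + a (g * g)) / 2 - 1 - a g := rfl
    rw [h1, hav, hav, hsq]
    refine cases8 hc (fun n => ((v10 n : ℂ) ^ 2 + (v10 (n / Nat.gcd n 2) : ℂ)) / 2 - 1 - (v10 n : ℂ) = (v44 n : ℂ)) ?_ ?_ ?_ ?_ ?_ ?_ ?_ ?_ g <;>
      norm_num [v10, v44]
  have hcI : IsIrrCharacter G c := by
    apply H3.isIrr_of_gen (H3.isGen_sub (H3.isGen_sub (H3.isGen_of_char (H9.isChar_symSq hac)) H3.isGen_one) (H3.isGen_of_char hac))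
    · exact inner_one_of hc v44 v44 hcv hcv (by decide)
    · show 0 < (c 1).re
      rw [hcv, orderOf_one]; norm_num [v44]
  exact ⟨⟨a, haI⟩, ⟨b, hbI⟩, ⟨c, hcI⟩, hav, hbv, hcv⟩

end three

end Cfsg.Agent.H21.MA
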