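import Cfsg.Agent.H21.MB4
import Cfsg.Agent.H3.Basic2

set_option autoImplicit false
set_option linter.unusedSectionVars false
set_option linter.unusedVariables false
set_option linter.style.haveILetI false

/-! Character degrees of the simple group of order 7920. -/

namespace Cfsg.Agent.H21.MA

open Subgroup MulAction Cfsg
open scoped Pointwise ComplexConjugate

theorem pcong {G : Type*} [Group G] [Finite G] {χ : G → ℂ} (hχ : IsCharacter G χ) {p : ℕ} [hp : Fact p.Prime] {g : G}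
    (hg : orderOf g = p) (h : ∀ y ∈ zpowers g, y ≠ 1 → χ y = χ g) {d : ℕ} (hd : χ 1 = d) :
    ∃ v : ℤ, χ g = v ∧ (d : ℤ) ≡ v [ZMOD p] := by
  classical
  haveI := Fintype.ofFinite (zpowers g)
  have hcard : Nat.card (zpowers g) = p := by rw [Nat.card_zpowers, hg]
  obtain ⟨n, hn⟩ := H3.classInner_char_nat (H3.isChar_restrict (zpowers g) hχ) (H3.isChar_one (G := zpowers g))
  unfold classInner at hn
  rw [hcard] at hn
  have hp0 : (p : ℂ) ≠ 0 := by exact_mod_cast hp.out.ne_zero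
  have h1 : ∑ y : zpowers g, χ (y : G) * conj (1 : ℂ) = (d : ℂ) + ((p : ℂ) - 1) * χ g := by
    rw [← Finset.add_sum_erase _ _ (Finset.mem_univ (1 : zpowers g))]
    rw [Finset.sum_congr rfl (g := fun _ => χ g) (fun y hy => by
      rw [map_one, mul_one]
      exact h y.1 y.2 (fun h1 => (Finset.mem_erase.mp hy).1 (Subtype.ext h1)))]
    rw [Finset.sum_const, Finset.card_erase_of_mem (Finset.mem_univ _), Finset.card_univ, ← Nat.card_eq_fintype_card, hcard,
      nsmul_eq_mul, Nat.cast_sub hp.out.one_le]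
    simp [hd]
  have h2 : (d : ℂ) + ((p : ℂ) - 1) * χ g = p * n := by
    rw [← h1, ← hn, ← mul_assoc, mul_inv_cancel₀ hp0, one_mul]
  have hp1 : (p : ℂ) - 1 ≠ 0 := by
    have : (1 : ℂ) ≠ p := by exact_mod_cast hp.out.one_lt.ne
    exact sub_ne_zero.mpr this.symm
  have h3 : χ g = (((p * n - d : ℚ) / (p - 1) : ℚ) : ℂ) := by
    push_cast
    rw [eq_div_iff hp1]
    linear_combination h2
  have h4 := H3.char_isIntegral hχ g
  rw [h3] at h4
  obtain ⟨v, hv⟩ := H3.exists_int_of_isIntegral_rat h4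
  refine ⟨v, by rw [h3, hv]; norm_cast, ?_⟩
  rw [h3, hv] at h2
  have h5 : (d : ℤ) + ((p : ℤ) - 1) * v = p * n := by
    have : ((v : ℚ) : ℂ) = ((v : ℤ) : ℂ) := by norm_cast
    rw [this] at h2
    exact_mod_cast h2
  rw [Int.modEq_iff_dvd]
  exact ⟨v - n, by linear_combination (-1 : ℤ) * h5⟩

theorem arith {a b c d : ℕ} {e f : ℤ} (ha : a ∣ 7920) (hb : b ∣ 7920) (hcc : c ∣ 7920) (hd : d ∣ 7920)
    (he : e = 1 ∨ e = -1) (hf : f = 1 ∨ f = -1) (ha5 : (a : ℤ) ≡ 0 [ZMOD 5]) (hd5 : (d : ℤ) ≡ 0 [ZMOD 5])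
    (hb5 : (b : ℤ) ≡ e [ZMOD 5]) (hc5 : (c : ℤ) ≡ f [ZMOD 5]) (h1 : 2 * (b * e) + c * f = 43)
    (h2 : 2 * a ^ 2 + 2 * b ^ 2 + c ^ 2 + d ^ 2 = 3858) :
    b = 16 ∧ c = 11 ∧ ((a = 10 ∧ d = 55) ∨ (a = 40 ∧ d = 5)) := by
  have hb43 : b ≤ 43 := by nlinarith
  have hc62 : c ≤ 62 := by nlinarith
  have ha43 : a ≤ 43 := by nlinarith
  have hbc : b = 16 ∧ c = 11 := by
    have key : ∀ b ∈ Finset.range 44, ∀ c ∈ Finset.range 63, b ∣ 7920 → c ∣ 7920 → ∀ e ∈ ({1, -1} : Finset ℤ), ∀ f ∈ ({1, -1} : Finset ℤ),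
        2 * ((b : ℤ) * e) + c * f = 43 → ((b : ℤ) - e) % 5 = 0 → ((c : ℤ) - f) % 5 = 0 → b = 16 ∧ c = 11 := by decide +kernel
    refine key b (by simp; omega) c (by simp; omega) hb hcc e (by simpa using he) f (by simpa using hf) h1 ?_ ?_
    · exact Int.emod_eq_zero_of_dvd (by rw [← Int.modEq_iff_dvd]; exact hb5.symm)
    · exact Int.emod_eq_zero_of_dvd (by rw [← Int.modEq_iff_dvd]; exact hc5.symm)
  refine ⟨hbc.1, hbc.2, ?_⟩
  rw [hbc.1, hbc.2] at h2
  have hd60 : d ≤ 60 := by nlinarith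
  have key : ∀ a ∈ Finset.range 44, ∀ d ∈ Finset.range 61, a ∣ 7920 → d ∣ 7920 → 5 ∣ a → 5 ∣ d → 
        2 * a ^ 2 + 2 * 16 ^ 2 + 11 ^ 2 + d ^ 2 = 3858 → ((a = 10 ∧ d = 55) ∨ (a = 40 ∧ d = 5)) := by decide +kernel
  refine key a (by simp; omega) d (by simp; omega) ha hd ?_ ?_ h2
  · have := Int.modEq_zero_iff_dvd.mp ha5
    exact_mod_cast this
  · have := Int.modEq_zero_iff_dvd.mp hd5
    exact_mod_cast this

theorem arith0 {x y p q : ℤ} (h : x ^ 2 + y ^ 2 + 2 * p ^ 2 + 2 * q ^ 2 = 3) :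
    (((x = 1 ∨ x = -1) ∧ y = 0) ∨ (x = 0 ∧ (y = 1 ∨ y = -1))) ∧
    (((p = 1 ∨ p = -1) ∧ q = 0) ∨ (p = 0 ∧ (q = 1 ∨ q = -1))) := by
  have hx : -1 ≤ x ∧ x ≤ 1 := by constructor <;> nlinarith
  have hy : -1 ≤ y ∧ y ≤ 1 := by constructor <;> nlinarith
  have hp : -1 ≤ p ∧ p ≤ 1 := by constructor <;> nlinarith
  have hq : -1 ≤ q ∧ q ≤ 1 := by constructor <;> nlinarith
  obtain ⟨hx1, hx2⟩ := hx
  obtain ⟨hy1, hy2⟩ := hy
  obtain ⟨hp1, hp2⟩ := hp
  obtain ⟨hq1, hq2⟩ := hq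
  interval_cases x <;> interval_cases y <;> interval_cases p <;> interval_cases q <;> simp_all

section three
variable {G : Type*} [Group G] [Finite G] [IsSimpleGroup G] (hc : Nat.card G = 7920)
include hc

theorem conj11 {x y : G} (hx : orderOf x = 11) (hy : orderOf y = 11) : IsConj x y ∨ IsConj x⁻¹ y := by
  by_contra hn
  push Not at hn
  obtain ⟨h1, h2⟩ := hn
  have hxi : orderOf x⁻¹ = 11 := by rw [orderOf_inv, hx]
  have c1 := H3.card_isConj_mul_card_centralizer x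
  have c2 := H3.card_isConj_mul_card_centralizer x⁻¹
  rw [F11 hc x hx, hc] at c1
  rw [F11 hc x⁻¹ hxi, hc] at c2
  have e1 : Nat.card {g : G // IsConj x g} = 720 := by omega
  have e2 : Nat.card {g : G // IsConj x⁻¹ g} = 720 := by omega
  have e3 : Nat.card {g : G // orderOf g = 11} = 1440 := mo_eleven hc
  have hinj : Function.Injective (fun g : {g : G // IsConj x g} ⊕ {g : G // IsConj x⁻¹ g} =>
      (match g with
        | Sum.inl g => ⟨g.1, by
            obtain ⟨c, hc⟩ := isConj_iff.mp g.2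
            rw [← hc, orderOf_cj, hx]⟩
        | Sum.inr g => ⟨g.1, by
            obtain ⟨c, hc⟩ := isConj_iff.mp g.2
            rw [← hc, orderOf_cj, hxi]⟩ : {g : G // orderOf g = 11})) := by
    rintro (a | a) (b | b) hab
    · have h1 : a.1 = b.1 := congrArg (fun w => w.1) hab
      rw [Subtype.ext h1]
    · have h1 : a.1 = b.1 := congrArg (fun w => w.1) hab
      exfalso
      apply nonreal11 hc hx
      exact a.2.trans (by rw [h1]; exact b.2.symm)
    · have h1 : a.1 = b.1 := congrArg (fun w => w.1) hab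
      exfalso
      apply nonreal11 hc hx
      exact b.2.trans (by rw [← h1]; exact a.2.symm)
    · have h1 : a.1 = b.1 := congrArg (fun w => w.1) hab
      rw [Subtype.ext h1]
  have hbij := (Nat.bijective_iff_injective_and_card _).mpr ⟨hinj, by rw [Nat.card_sum, e1, e2, e3]⟩
  obtain ⟨w, hwy⟩ := hbij.2 ⟨y, hy⟩
  rcases w with w | w
  · have h6 : w.1 = y := congrArg (fun w => w.1) hwy
    exact h1 (h6 ▸ w.2)
  · have h6 : w.1 = y := congrArg (fun w => w.1) hwy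
    exact h2 (h6 ▸ w.2)

theorem exists_list [Fintype (IrrCharacter G)] (K : Finset (IrrCharacter G)) (hK : K.card = 4)
    (hKr : ∀ χ ∈ K, H3.irrConj χ = χ) : ∃ x y p q : IrrCharacter G, H3.irrConj x = x ∧ H3.irrConj y = y ∧
    ∀ F : IrrCharacter G → ℂ, ∑ χ, F χ = (∑ χ ∈ K, F χ) + (F x + F y) + (F p + F (H3.irrConj p) + (F q + F (H3.irrConj q))) := by
  classical
  set R : Finset (IrrCharacter G) := Finset.univ.filter (fun χ => H3.irrConj χ = χ) with hR
  have hR6 : R.card = 6 := by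
    have h1 := H3.card_real_irr (G := G)
    rw [card_real hc, Nat.card_eq_fintype_card, Fintype.card_subtype] at h1
    exact h1
  have hU : (Finset.univ : Finset (IrrCharacter G)).card = 10 := by
    rw [Finset.card_univ, ← Nat.card_eq_fintype_card, H3.card_irr_eq, card_classes hc]
  have hKR : K ⊆ R := fun χ hχ => Finset.mem_filter.mpr ⟨Finset.mem_univ _, hKr χ hχ⟩
  have h2 : (R \ K).card = 2 := by rw [Finset.card_sdiff_of_subset hKR, hR6, hK]
  obtain ⟨x, y, hxy, hRK⟩ := Finset.card_eq_two.mp h2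
  have hxR : x ∈ R := (Finset.mem_sdiff.mp (by rw [hRK]; simp : x ∈ R \ K)).1
  have hyR : y ∈ R := (Finset.mem_sdiff.mp (by rw [hRK]; simp : y ∈ R \ K)).1
  set N : Finset (IrrCharacter G) := Finset.univ \ R with hN
  have hN4 : N.card = 4 := by rw [hN, Finset.card_sdiff_of_subset (Finset.subset_univ _), hU, hR6]
  have hmemN : ∀ χ, χ ∈ N ↔ H3.irrConj χ ≠ χ := by
    intro χ
    rw [hN, Finset.mem_sdiff, hR, Finset.mem_filter]
    simp
  have hcN : ∀ χ ∈ N, H3.irrConj χ ∈ N := by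
    intro χ hχ
    rw [hmemN] at hχ ⊢
    rw [H3.irrConj_irrConj]
    exact fun h => hχ h.symm
  obtain ⟨p, hp⟩ := Finset.card_pos.mp (by rw [hN4]; norm_num : 0 < N.card)
  have hpc := hcN p hp
  have hpne := (hmemN p).mp hp
  have hM2 : ((N.erase p).erase (H3.irrConj p)).card = 2 := by
    rw [Finset.card_erase_of_mem (Finset.mem_erase.mpr ⟨hpne, hpc⟩), Finset.card_erase_of_mem hp, hN4]
  obtain ⟨q, q', hqq, hM⟩ := Finset.card_eq_two.mp hM2
  have hqM : q ∈ (N.erase p).erase (H3.irrConj p) := by rw [hM]; simp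
  obtain ⟨hq1, hq2⟩ := Finset.mem_erase.mp hqM
  obtain ⟨hq3, hqN⟩ := Finset.mem_erase.mp hq2
  have hqc : H3.irrConj q ∈ (N.erase p).erase (H3.irrConj p) := by
    refine Finset.mem_erase.mpr ⟨fun h => hq3 ?_, Finset.mem_erase.mpr ⟨fun h => hq1 ?_, hcN q hqN⟩⟩
    · rw [← H3.irrConj_irrConj q, h, H3.irrConj_irrConj]
    · rw [← H3.irrConj_irrConj q, h]
  rw [hM] at hqc
  have hq' : q' = H3.irrConj q := by
    simp only [Finset.mem_insert, Finset.mem_singleton] at hqc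
    rcases hqc with h | h
    · exact absurd h ((hmemN q).mp hqN)
    · exact h.symm
  refine ⟨x, y, p, q, (Finset.mem_filter.mp hxR).2, (Finset.mem_filter.mp hyR).2, ?_⟩
  intro F
  have s1 : ∑ χ, F χ = ∑ χ ∈ N, F χ + ∑ χ ∈ R, F χ := (Finset.sum_sdiff (Finset.subset_univ R)).symm
  have s2 : ∑ χ ∈ R, F χ = ∑ χ ∈ R \ K, F χ + ∑ χ ∈ K, F χ := (Finset.sum_sdiff hKR).symm
  have s3 : ∑ χ ∈ R \ K, F χ = F x + F y := by rw [hRK, Finset.sum_pair hxy]
  have s4 : ∑ χ ∈ N, F χ = F p + (F (H3.irrConj p) + (F q + F q')) := by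
    rw [← Finset.add_sum_erase N F hp, ← Finset.add_sum_erase (N.erase p) F (Finset.mem_erase.mpr ⟨hpne, hpc⟩), hM,
      Finset.sum_pair hqq]
  rw [s1, s2, s3, s4, hq']
  ring

end three

end Cfsg.Agent.H21.MA
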