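import Cfsg.Agent.H21.MB5

set_option autoImplicit false
set_option linter.unusedSectionVars false
set_option linter.unusedVariables false
set_option linter.style.haveILetI false

/-! Character degrees of the simple group of order 7920. -/

namespace Cfsg.Agent.H21.MA

open Subgroup MulAction Cfsg
open scoped Pointwise ComplexConjugate

theorem count_final (n : ℕ) : (((if (1 : ℕ) = n then 1 else 0) + (if (10 : ℕ) = n then 1 else 0) + (if (45 : ℕ) = n then 1 else 0) + (if (44 : ℕ) = n then 1 else 0)) +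
    ((if (11 : ℕ) = n then 1 else 0) + (if (55 : ℕ) = n then 1 else 0)) + (((if (10 : ℕ) = n then 1 else 0) + (if (10 : ℕ) = n then 1 else 0)) +
      ((if (16 : ℕ) = n then 1 else 0) + (if (16 : ℕ) = n then 1 else 0))) : ℕ) =
    (if n = 1 ∨ n = 11 ∨ n = 44 ∨ n = 45 ∨ n = 55 then 1 else if n = 10 then 3 else if n = 16 then 2 else 0) := by
  by_cases h1 : n = 1
  · subst h1; norm_num
  by_cases h2 : n = 10
  · subst h2; norm_num
  by_cases h3 : n = 11
  · subst h3; norm_num
  by_cases h4 : n = 16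
  · subst h4; norm_num
  by_cases h5 : n = 44
  · subst h5; norm_num
  by_cases h6 : n = 45
  · subst h6; norm_num
  by_cases h7 : n = 55
  · subst h7; norm_num
  rw [if_neg (Ne.symm h1), if_neg (Ne.symm h2), if_neg (Ne.symm h6), if_neg (Ne.symm h5), if_neg (Ne.symm h3),
    if_neg (Ne.symm h7), if_neg (Ne.symm h4), if_neg (by tauto), if_neg h2, if_neg h4]

section three
variable {G : Type*} [Group G] [Finite G] [IsSimpleGroup G] (hc : Nat.card G = 7920)
include hc

theorem degrees : Nat.card (IrrCharacter G) = 10 ∧ ∀ n : ℕ, Nat.card {χ : IrrCharacter G // charDegree (χ : G → ℂ) = n} =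
    (if n = 1 ∨ n = 11 ∨ n = 44 ∨ n = 45 ∨ n = 55 then 1 else if n = 10 then 3 else if n = 16 then 2 else 0) := by
  classical
  haveI := Fintype.ofFinite G
  haveI := Fintype.ofFinite (IrrCharacter G)
  refine ⟨by rw [H3.card_irr_eq, card_classes hc], ?_⟩
  obtain ⟨a, b, c, hav, hbv, hcv⟩ := exists_rat hc
  set D : IrrCharacter G → ℕ := fun χ => charDegree (χ : G → ℂ) with hDdef
  have hD : ∀ χ : IrrCharacter G, (χ : G → ℂ) 1 = (D χ : ℂ) := fun χ => (H27.charDegree_cast (H3.irr_isChar χ.2)).symm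
  have hDd : ∀ χ : IrrCharacter G, D χ ∣ 7920 := by
    intro χ
    rw [← hc]
    exact H27.charDegree_dvd_card χ.2
  set o : IrrCharacter G := ⟨fun _ => 1, H3.isIrr_one⟩ with ho
  have hov : ∀ g, (o : G → ℂ) g = 1 := fun g => rfl
  have D1 : D o = 1 := by
    have := hD o
    rw [hov] at this; exact_mod_cast this.symm
  have Da : D a = 10 := by
    have := hD a
    rw [hav, orderOf_one] at this
    have h2 : ((v10 1 : ℤ) : ℂ) = ((10 : ℕ) : ℂ) := by norm_num [v10]
    rw [h2] at this; exact_mod_cast this.symm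
  have Db : D b = 45 := by
    have := hD b
    rw [hbv, orderOf_one] at this
    have h2 : ((v45 1 : ℤ) : ℂ) = ((45 : ℕ) : ℂ) := by norm_num [v45]
    rw [h2] at this; exact_mod_cast this.symm
  have Dc : D c = 44 := by
    have := hD c
    rw [hcv, orderOf_one] at this
    have h2 : ((v44 1 : ℤ) : ℂ) = ((44 : ℕ) : ℂ) := by norm_num [v44]
    rw [h2] at this; exact_mod_cast this.symm
  have hoa : o ≠ a := fun h => by rw [h, Da] at D1; norm_num at D1
  have hob : o ≠ b := fun h => by rw [h, Db] at D1; norm_num at D1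
  have hoc : o ≠ c := fun h => by rw [h, Dc] at D1; norm_num at D1
  have hab : a ≠ b := fun h => by rw [h, Db] at Da; norm_num at Da
  have hac : a ≠ c := fun h => by rw [h, Dc] at Da; norm_num at Da
  have hbc : b ≠ c := fun h => by rw [h, Dc] at Db; norm_num at Db
  set K : Finset (IrrCharacter G) := {o, a, b, c} with hKdef
  have hK4 : K.card = 4 := by
    rw [hKdef, Finset.card_insert_of_notMem (by simp [hoa, hob, hoc]), Finset.card_insert_of_notMem (by simp [hab, hac]),
      Finset.card_insert_of_notMem (by simp [hbc]), Finset.card_singleton]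
  have hKsum : ∀ F : IrrCharacter G → ℂ, ∑ χ ∈ K, F χ = F o + F a + F b + F c := by
    intro F
    rw [hKdef, Finset.sum_insert (by simp [hoa, hob, hoc]), Finset.sum_insert (by simp [hab, hac]),
      Finset.sum_insert (by simp [hbc]), Finset.sum_singleton]
    ring
  have hKr : ∀ χ ∈ K, H3.irrConj χ = χ := by
    intro χ hχ
    rw [H3.irrConj_eq_iff]
    intro g
    simp only [hKdef, Finset.mem_insert, Finset.mem_singleton] at hχ
    rcases hχ with rfl | rfl | rfl | rfl
    · rw [hov]; simp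
    · rw [hav]; simp
    · rw [hbv]; simp
    · rw [hcv]; simp
  obtain ⟨x, y, p, q, hxr, hyr, hS⟩ := exists_list hc K hK4 hKr
  simp only [hKsum] at hS
  have hDconj : ∀ χ, D (H3.irrConj χ) = D χ := by
    intro χ
    have h1 := hD (H3.irrConj χ)
    rw [H3.irrConj_apply, hD] at h1
    simp only [map_natCast] at h1
    exact_mod_cast h1.symm
  -- order 5
  obtain ⟨g5, hg5⟩ := mo_pos (G := G) (n := 5) (by rw [mo_five hc]; norm_num)
  obtain ⟨g11, hg11⟩ := mo_pos (G := G) (n := 11) (by rw [mo_eleven hc]; norm_num)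
  haveI : Fact (Nat.Prime 5) := ⟨by norm_num⟩
  haveI : Fact (Nat.Prime 11) := ⟨by norm_num⟩
  have hv5 : ∀ χ : IrrCharacter G, ∃ v : ℤ, (χ : G → ℂ) g5 = v ∧ (D χ : ℤ) ≡ v [ZMOD 5] := by
    intro χ
    refine pcong (H3.irr_isChar χ.2) hg5 (fun y hy hy1 => ?_) (hD χ)
    apply H3.classFun_isConj (H3.irr_classFun χ.2)
    have h1 : orderOf y ∣ 5 := by
      have := orderOf_dvd_card_mem hy
      rwa [Nat.card_zpowers, hg5] at this
    have h2 : orderOf y = 5 := by
      rcases (Nat.dvd_prime (by norm_num : Nat.Prime 5)).mp h1 with h | h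
      · exact absurd (orderOf_eq_one_iff.mp h) hy1
      · exact h
    exact conj_of_ord hc (by rw [h2, hg5]) (by rw [h2]; norm_num) (by rw [h2]; norm_num)
  choose v hv hvm using hv5
  have hvconj : ∀ χ, v (H3.irrConj χ) = v χ := by
    intro χ
    have h1 := hv (H3.irrConj χ)
    rw [H3.irrConj_apply, hv] at h1
    simp only [map_intCast] at h1
    exact_mod_cast h1.symm
  have vo : v o = 1 := by
    have := hv o
    rw [hov] at this; exact_mod_cast this.symm
  have va : v a = 0 := by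
    have := hv a
    rw [hav, hg5] at this
    have h2 : ((v10 5 : ℤ) : ℂ) = ((0 : ℤ) : ℂ) := by norm_num [v10]
    rw [h2] at this; exact_mod_cast this.symm
  have vb : v b = 0 := by
    have := hv b
    rw [hbv, hg5] at this
    have h2 : ((v45 5 : ℤ) : ℂ) = ((0 : ℤ) : ℂ) := by norm_num [v45]
    rw [h2] at this; exact_mod_cast this.symm
  have vc : v c = -1 := by
    have := hv c
    rw [hcv, hg5] at this
    have h2 : ((v44 5 : ℤ) : ℂ) = ((-1 : ℤ) : ℂ) := by norm_num [v44]
    rw [h2] at this; exact_mod_cast this.symm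
  have hg51 : g5 ≠ 1 := ne_one_of_ord hc hg5 (by norm_num)
  -- the three equations
  have E1 : 2 * (D p) ^ 2 + 2 * (D q) ^ 2 + (D x) ^ 2 + (D y) ^ 2 = 3858 := by
    have h1 := H3.sum_degree_sq (G := G)
    rw [hS] at h1
    simp only [hD, hDconj, D1, Da, Db, Dc, hc] at h1
    have h2 : (1 ^ 2 + 10 ^ 2 + 45 ^ 2 + 44 ^ 2 + (D x ^ 2 + D y ^ 2) + (D p ^ 2 + D p ^ 2 + (D q ^ 2 + D q ^ 2)) : ℕ) = 7920 := by
      exact_mod_cast h1
    omega
  have E2 : (D x : ℤ) * v x + D y * v y + 2 * (D p * v p) + 2 * (D q * v q) = 43 := by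
    have h1 := H3.sum_degree_mul (G := G) g5
    rw [hS, if_neg hg51] at h1
    simp only [hD, hDconj, D1, Da, Db, Dc, hv, hvconj, vo, va, vb, vc] at h1
    have h2 : (1 * 1 + 10 * 0 + 45 * 0 + 44 * (-1) + (D x * v x + D y * v y) + (D p * v p + D p * v p + (D q * v q + D q * v q)) : ℤ) = 0 := by
      exact_mod_cast h1
    linear_combination h2
  have E3 : (v x) ^ 2 + (v y) ^ 2 + 2 * (v p) ^ 2 + 2 * (v q) ^ 2 = 3 := by
    have h1 := H3.column_orth (G := G) g5 g5
    rw [hS, if_pos (IsConj.refl _), F5 hc g5 hg5] at h1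
    simp only [hv, hvconj, vo, va, vb, vc, map_intCast] at h1
    have h2 : (1 * 1 + 0 * 0 + 0 * 0 + (-1) * (-1) + (v x * v x + v y * v y) + (v p * v p + v p * v p + (v q * v q + v q * v q)) : ℤ) = 5 := by
      exact_mod_cast h1
    linear_combination h2
  -- no real character of degree 5
  have hno5 : ∀ χ : IrrCharacter G, H3.irrConj χ = χ → D χ = 5 → (χ = x ∨ χ = y) → False := by
    intro χ hχr hχ5 hxy
    obtain ⟨w, hw, hwm⟩ := pcong (H3.irr_isChar χ.2) hg11 (fun y hy hy1 => by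
      have h1 : orderOf y ∣ 11 := by
        have := orderOf_dvd_card_mem hy
        rwa [Nat.card_zpowers, hg11] at this
      have h2 : orderOf y = 11 := by
        rcases (Nat.dvd_prime (by norm_num : Nat.Prime 11)).mp h1 with h | h
        · exact absurd (orderOf_eq_one_iff.mp h) hy1
        · exact h
      rcases conj11 hc h2 hg11 with h3 | h3
      · exact H3.classFun_isConj (H3.irr_classFun χ.2) h3
      · rw [← H3.classFun_isConj (H3.irr_classFun χ.2) h3, H3.char_inv (H3.irr_isChar χ.2), ← H3.irrConj_apply, hχr])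
      (hD χ)
    have h1 := H3.column_orth (G := G) g11 g11
    rw [hS, if_pos (IsConj.refl _), F11 hc g11 hg11] at h1
    simp only [hov, hav, hbv, hcv, hg11, Complex.mul_conj] at h1
    have h2 : (1 + 1 + 1 + 0 + (Complex.normSq ((x : G → ℂ) g11) + Complex.normSq ((y : G → ℂ) g11)) +
        (Complex.normSq ((p : G → ℂ) g11) + Complex.normSq ((H3.irrConj p : G → ℂ) g11) +
        (Complex.normSq ((q : G → ℂ) g11) + Complex.normSq ((H3.irrConj q : G → ℂ) g11))) : ℝ) = 11 := by
      have e1 : Complex.normSq (1 : ℂ) = 1 := by simp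
      have e2 : Complex.normSq ((v10 11 : ℤ) : ℂ) = 1 := by norm_num [v10]
      have e3 : Complex.normSq ((v45 11 : ℤ) : ℂ) = 1 := by norm_num [v45]
      have e4 : Complex.normSq ((v44 11 : ℤ) : ℂ) = 0 := by norm_num [v44]
      rw [e1, e2, e3, e4] at h1
      exact_mod_cast h1
    have h3 : Complex.normSq ((χ : G → ℂ) g11) ≤ 8 := by
      have i1 := Complex.normSq_nonneg ((x : G → ℂ) g11)
      have i2 := Complex.normSq_nonneg ((y : G → ℂ) g11)
      have i3 := Complex.normSq_nonneg ((p : G → ℂ) g11)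
      have i4 := Complex.normSq_nonneg ((q : G → ℂ) g11)
      have i5 := Complex.normSq_nonneg ((H3.irrConj p : G → ℂ) g11)
      have i6 := Complex.normSq_nonneg ((H3.irrConj q : G → ℂ) g11)
      rcases hxy with rfl | rfl <;> linarith
    rw [hw, Complex.normSq_intCast] at h3
    have h4 : w ^ 2 ≤ 8 := by
      have : ((w * w : ℤ) : ℝ) ≤ 8 := by push_cast; exact h3
      rw [pow_two]; exact_mod_cast this
    rw [hχ5] at hwm
    have h5 : -2 ≤ w ∧ w ≤ 2 := by constructor <;> nlinarith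
    obtain ⟨h5, h6⟩ := h5
    unfold Int.ModEq at hwm
    interval_cases w <;> norm_num at hwm
  -- solution
  have key : ((D x = 11 ∧ D y = 55) ∨ (D x = 55 ∧ D y = 11)) ∧ ((D p = 10 ∧ D q = 16) ∨ (D p = 16 ∧ D q = 10)) := by
    obtain ⟨hxy, hpq⟩ := arith0 E3
    rcases hxy with ⟨h1, h2⟩ | ⟨h2, h1⟩ <;> rcases hpq with ⟨h3, h4⟩ | ⟨h4, h3⟩
    · have := arith (hDd q) (hDd p) (hDd x) (hDd y) h3 h1 (h4 ▸ hvm q) (h2 ▸ hvm y) (hvm p) (hvm x)
        (by rw [h2, h4] at E2; linear_combination E2) (by linarith)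
      obtain ⟨k1, k2, k3 | k3⟩ := this
      · exact ⟨Or.inl ⟨k2, k3.2⟩, Or.inr ⟨k1, k3.1⟩⟩
      · exact absurd k3.2 (fun h => hno5 y hyr h (Or.inr rfl))
    · have := arith (hDd p) (hDd q) (hDd x) (hDd y) h3 h1 (h4 ▸ hvm p) (h2 ▸ hvm y) (hvm q) (hvm x)
        (by rw [h2, h4] at E2; linear_combination E2) (by linarith)
      obtain ⟨k1, k2, k3 | k3⟩ := this
      · exact ⟨Or.inl ⟨k2, k3.2⟩, Or.inl ⟨k3.1, k1⟩⟩
      · exact absurd k3.2 (fun h => hno5 y hyr h (Or.inr rfl))
    · have := arith (hDd q) (hDd p) (hDd y) (hDd x) h3 h1 (h4 ▸ hvm q) (h2 ▸ hvm x) (hvm p) (hvm y)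
        (by rw [h2, h4] at E2; linear_combination E2) (by linarith)
      obtain ⟨k1, k2, k3 | k3⟩ := this
      · exact ⟨Or.inr ⟨k3.2, k2⟩, Or.inr ⟨k1, k3.1⟩⟩
      · exact absurd k3.2 (fun h => hno5 x hxr h (Or.inl rfl))
    · have := arith (hDd p) (hDd q) (hDd y) (hDd x) h3 h1 (h4 ▸ hvm p) (h2 ▸ hvm x) (hvm q) (hvm y)
        (by rw [h2, h4] at E2; linear_combination E2) (by linarith)
      obtain ⟨k1, k2, k3 | k3⟩ := this
      · exact ⟨Or.inr ⟨k3.2, k2⟩, Or.inl ⟨k3.1, k1⟩⟩
      · exact absurd k3.2 (fun h => hno5 x hxr h (Or.inl rfl))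
  intro n
  have h1 := hS (fun χ => if D χ = n then 1 else 0)
  rw [Finset.sum_boole] at h1
  simp only [hDconj, D1, Da, Db, Dc] at h1
  rw [← count_final n, Nat.card_eq_fintype_card, Fintype.card_subtype]
  rcases key with ⟨⟨k1, k2⟩ | ⟨k1, k2⟩, ⟨k3, k4⟩ | ⟨k3, k4⟩⟩ <;> rw [k1, k2, k3, k4] at h1
  · exact_mod_cast h1
  · rw [add_comm ((if 16 = n then (1 : ℂ) else 0) + (if 16 = n then (1 : ℂ) else 0))] at h1
    exact_mod_cast h1
  · rw [add_comm (if 55 = n then (1 : ℂ) else 0)] at h1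
    exact_mod_cast h1
  · rw [add_comm (if 55 = n then (1 : ℂ) else 0), add_comm ((if 16 = n then (1 : ℂ) else 0) + (if 16 = n then (1 : ℂ) else 0))] at h1
    exact_mod_cast h1

end three

end Cfsg.Agent.H21.MA
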