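import Mathlib
import Cfsg.Prelude.Def_CaseTheorems
import Cfsg.Agent.H24.Quat

set_option autoImplicit false
set_option linter.all false

/-!
Groups of order 8 with a unique involution; Sylow 2-subgroups of `GL₂(3)` (helper21).
-/

namespace Cfsg.Agent.H21

theorem cyc_or_quat {G : Type*} [Group G] [Finite G] (hcard : Nat.card G = 8)
    (hu : ∀ x y : G, orderOf x = 2 → orderOf y = 2 → x = y) : IsCyclic G ∨ Nonempty (G ≃* QuaternionGroup 2) := by
  by_cases hcyc : IsCyclic G
  · exact Or.inl hcyc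
  right
  have h4 : ∀ x : G, x ^ 4 = 1 := by
    intro x
    have h1 : orderOf x ∣ 8 := hcard ▸ orderOf_dvd_natCard x
    have h2 : orderOf x ≠ 8 := fun h => hcyc (isCyclic_of_orderOf_eq_card x (by rw [h, hcard]))
    apply orderOf_dvd_iff_pow_eq_one.1
    have hle := Nat.le_of_dvd (by norm_num) h1
    generalize orderOf x = n at *
    interval_cases n <;> first | decide | (exfalso; revert h1; decide) | (exfalso; exact h2 rfl)
  have hord2 : ∀ x : G, x * x = 1 → x ≠ 1 → orderOf x = 2 := fun x hx hx1 => orderOf_eq_prime (by rw [pow_two, hx]) hx1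
  -- an element of order 4
  obtain ⟨x, hx⟩ : ∃ x : G, x * x ≠ 1 := by
    by_contra hcon
    push Not at hcon
    have hle : Nat.card G ≤ 2 := by
      classical
      haveI := Fintype.ofFinite G
      rw [Nat.card_eq_fintype_card, ← Fintype.card_bool]
      apply Fintype.card_le_of_injective (fun g : G => decide (g = 1))
      intro a b hab
      by_cases ha : a = 1
      · have hb : b = 1 := by simpa [ha] using hab
        rw [ha, hb]
      · have hb : b ≠ 1 := by simpa [ha] using hab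
        exact hu a b (hord2 a (hcon a) ha) (hord2 b (hcon b) hb)
    omega
  have hxx : orderOf (x * x) = 2 := hord2 _ (by
    have := h4 x
    rwa [show x ^ 4 = x * x * (x * x) by rw [pow_succ, pow_succ, pow_two, mul_assoc]] at this) hx
  have hxo : orderOf x = 4 := by
    have := orderOf_eq_prime_pow (x := x) (p := 2) (n := 1) (by rw [pow_one, pow_two]; exact hx) (by norm_num; exact h4 x)
    rw [this]; norm_num
  have hCx : Nat.card (Subgroup.zpowers x) = 4 := by rw [Nat.card_zpowers, hxo]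
  have hidx : (Subgroup.zpowers x).index = 2 := by
    have := Subgroup.card_mul_index (Subgroup.zpowers x)
    rw [hCx, hcard] at this
    omega
  haveI hnorm : (Subgroup.zpowers x).Normal := Subgroup.normal_of_index_eq_two hidx
  obtain ⟨y, hy⟩ : ∃ y : G, y ∉ Subgroup.zpowers x := by
    by_contra hcon
    push Not at hcon
    have : Subgroup.zpowers x = ⊤ := by rw [Subgroup.eq_top_iff']; exact hcon
    rw [this, Subgroup.index_top] at hidx
    omega
  have hy1 : y ≠ 1 := by rintro rfl; exact hy (Subgroup.one_mem _)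
  have hyy1 : y * y ≠ 1 := by
    intro h
    apply hy
    have := hu y (x * x) (hord2 y h hy1) hxx
    rw [this]
    exact Subgroup.mul_mem _ (Subgroup.mem_zpowers x) (Subgroup.mem_zpowers x)
  have hyy : y * y = x * x := by
    apply hu _ _ (hord2 _ _ hyy1) hxx
    have := h4 y
    rwa [show y ^ 4 = y * y * (y * y) by rw [pow_succ, pow_succ, pow_two, mul_assoc]] at this
  have hmem : y * x * y⁻¹ ∈ Subgroup.zpowers x := hnorm.conj_mem x (Subgroup.mem_zpowers x) y
  obtain ⟨n, hn⟩ := (Submonoid.mem_powers_iff _ _).1 (mem_powers_iff_mem_zpowers.2 hmem)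
  have hn' : y * x * y⁻¹ = x ^ (n % 4) := by
    rw [← hn, ← hxo, pow_mod_orderOf]
  have hlt : n % 4 < 4 := Nat.mod_lt _ (by norm_num)
  have hsq : (y * x * y⁻¹) * (y * x * y⁻¹) = y * (x * x) * y⁻¹ := by group
  have hxx1 : y * (x * x) * y⁻¹ ≠ 1 := by
    intro h
    apply hx
    have : x * x = y⁻¹ * (y * (x * x) * y⁻¹) * y := by group
    rw [this, h]; group
  have hxy : y * x * y⁻¹ = x⁻¹ := by
    generalize n % 4 = k at *
    interval_cases k
    · exfalso
      apply hxx1
      rw [← hsq, hn', pow_zero, mul_one]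
    · exfalso
      rw [pow_one] at hn'
      have hc : y * x = x * y := mul_inv_eq_iff_eq_mul.1 hn'
      have h1 : (x * y) * (x * y) = 1 := by
        calc (x * y) * (x * y) = x * (y * x) * y := by group
          _ = x * (x * y) * y := by rw [hc]
          _ = (x * x) * (y * y) := by group
          _ = (x * x) * (x * x) := by rw [hyy]
          _ = x ^ 4 := by rw [pow_succ, pow_succ, pow_two]; simp only [mul_assoc]
          _ = 1 := h4 x
      by_cases h2 : x * y = 1
      · apply hy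
        rw [← inv_eq_of_mul_eq_one_right h2]
        exact Subgroup.inv_mem _ (Subgroup.mem_zpowers x)
      · have h3 := hu _ _ (hord2 _ h1 h2) hxx
        apply hy
        rw [mul_left_cancel h3]
        exact Subgroup.mem_zpowers x
    · exfalso
      apply hxx1
      rw [← hsq, hn', ← pow_add]; exact h4 x
    · rw [hn']
      apply eq_inv_of_mul_eq_one_left
      rw [← pow_succ]; exact h4 x
  refine Cfsg.Agent.H24.nonempty_mulEquiv_quaternion 2 x y (h4 x) (by rw [hyy, pow_two]) hxy ?_ (by rw [hcard])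
  -- generation
  have hle : Subgroup.zpowers x ≤ Subgroup.closure {x, y} := by
    rw [Subgroup.zpowers_le]; exact Subgroup.subset_closure (by simp)
  have h5 : 4 ∣ Nat.card (Subgroup.closure {x, y}) := by rw [← hCx]; exact Subgroup.card_dvd_of_le hle
  have h6 : Nat.card (Subgroup.closure {x, y}) ∣ 8 := hcard ▸ Subgroup.card_subgroup_dvd_card _
  have h7 : Nat.card (Subgroup.closure {x, y}) ≠ 4 := by
    intro h
    have h8 : Subgroup.zpowers x = Subgroup.closure {x, y} := Subgroup.eq_of_le_of_card_ge hle (by rw [h, hCx])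
    apply hy
    rw [h8]; exact Subgroup.subset_closure (by simp)
  apply Subgroup.eq_top_of_card_eq
  rw [hcard]
  obtain ⟨c, hc⟩ := h5
  have h9 := Nat.le_of_dvd (by norm_num) h6
  have h10 : 0 < Nat.card (Subgroup.closure {x, y}) := Nat.card_pos
  omega

open Matrix in
/-- the element of order 8 -/
theorem gl23_X : ∃ X : GL (Fin 2) (ZMod 3), (X : Matrix (Fin 2) (Fin 2) (ZMod 3)) * X = X + 1 ∧ (X : Matrix (Fin 2) (Fin 2) (ZMod 3)).trace = 1 := by
  refine ⟨⟨!![0, 1; 1, 1], !![-1, 1; 1, 0], by decide, by decide⟩, ?_, ?_⟩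
  · show (!![0, 1; 1, 1] : Matrix (Fin 2) (Fin 2) (ZMod 3)) * !![0, 1; 1, 1] = !![0, 1; 1, 1] + 1
    decide
  · show (!![0, 1; 1, 1] : Matrix (Fin 2) (Fin 2) (ZMod 3)).trace = 1
    decide

theorem card_gl23 : Nat.card (GL (Fin 2) (ZMod 3)) = 48 := by
  rw [Matrix.card_GL_field]
  simp [Fin.prod_univ_two, ZMod.card]


theorem z3_aaa : ∀ a : ZMod 3, a + a + a = 0 := by decide
theorem z3_m1 : (1 : Matrix (Fin 2) (Fin 2) (ZMod 3)) + 1 + 1 = 0 := by decide
theorem z3_neg1 : (-1 : Matrix (Fin 2) (Fin 2) (ZMod 3)) ≠ 1 := by decide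
theorem z3_negeq : ∀ a : ZMod 3, -a = a → a = 0 := by decide
theorem z3_quad : ∀ c : ZMod 3, c + 1 - c * c ≠ 0 := by decide
theorem z3_tr1 : (-1 : ZMod 3) ≠ 1 := by decide
theorem z3_tr2 : -(1 + 1 + ((Fintype.card (Fin 2) : ℕ) : ZMod 3)) ≠ 1 := by decide

open Matrix in
theorem qd16 {G : Type*} [Group G] [Finite G] (hcard : Nat.card G = 16) (f : G →* GL (Fin 2) (ZMod 3))
    (hf : Function.Injective f) (y : G) (hy : orderOf y = 2) (v : Fin 2 → ZMod 3) (hv : v ≠ 0)
    (hyv : (f y : Matrix (Fin 2) (Fin 2) (ZMod 3)) *ᵥ v = v) : Cfsg.IsQuasiDihedral G := by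
  classical
  haveI : Fact (Nat.Prime 3) := ⟨Nat.prime_three⟩
  haveI : Finite (GL (Fin 2) (ZMod 3)) := inferInstance
  obtain ⟨X, hX, hXt⟩ := gl23_X
  have hfac : (Nat.card (GL (Fin 2) (ZMod 3))).factorization 2 = 4 := by
    rw [card_gl23, show 48 = 2 ^ 4 * 3 by norm_num, Nat.factorization_mul (by norm_num) (by norm_num), Nat.factorization_pow]
    simp [Nat.Prime.factorization Nat.prime_two, Nat.Prime.factorization Nat.prime_three]
  have hcr : Nat.card f.range = 16 := by
    rw [← hcard]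
    exact (Nat.card_congr (MonoidHom.ofInjective hf).toEquiv).symm
  let P : Sylow 2 (GL (Fin 2) (ZMod 3)) := Sylow.ofCard f.range (by rw [hfac, hcr]; norm_num)
  -- generic facts for matrices with M² = M + 1
  have hfacts : ∀ M : Matrix (Fin 2) (Fin 2) (ZMod 3), M * M = M + 1 →
      M ^ 3 = M + M + 1 ∧ M ^ 4 = -1 := by
    intro M hM
    have h3 : M ^ 3 = M + M + 1 := by
      rw [pow_succ, pow_two, hM, add_mul, hM, one_mul]; abel
    refine ⟨h3, ?_⟩
    have h0 : M + M + M = 0 := by
      ext i j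
      simp only [Matrix.add_apply, Matrix.zero_apply]
      exact z3_aaa _
    have h01 : (1 : Matrix (Fin 2) (Fin 2) (ZMod 3)) + 1 + 1 = 0 := z3_m1
    rw [pow_succ, h3, add_mul, add_mul, hM, one_mul]
    have : M + 1 + (M + 1) + M = (M + M + M) + (1 + 1) := by abel
    rw [this, h0, zero_add]
    exact eq_neg_of_add_eq_zero_left h01
  have hneg1 : (-1 : Matrix (Fin 2) (Fin 2) (ZMod 3)) ≠ 1 := z3_neg1
  have hord8 : ∀ Z : GL (Fin 2) (ZMod 3), (Z : Matrix (Fin 2) (Fin 2) (ZMod 3)) * Z = Z + 1 → orderOf Z = 8 := by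
    intro Z hZ
    have h4 := (hfacts _ hZ).2
    have := orderOf_eq_prime_pow (x := Z) (p := 2) (n := 2) (by
      intro h
      have h1 := congrArg (fun z : GL (Fin 2) (ZMod 3) => (z : Matrix (Fin 2) (Fin 2) (ZMod 3))) h
      simp only [Units.val_pow_eq_pow_val, Units.val_one] at h1
      norm_num at h1
      rw [h4] at h1
      exact hneg1 h1) (by
      apply Units.ext
      rw [Units.val_pow_eq_pow_val, Units.val_one, show 2 ^ (2 + 1) = 4 * 2 by norm_num, pow_mul, h4, neg_one_sq])
    rw [this]; norm_num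
  have hXo := hord8 X hX
  have hXp : IsPGroup 2 (Subgroup.zpowers X) := by
    apply IsPGroup.of_card (n := 3)
    rw [Nat.card_zpowers, hXo]; norm_num
  obtain ⟨Q, hQ⟩ := hXp.exists_le_sylow
  obtain ⟨γ, hγ⟩ := MulAction.exists_smul_eq (GL (Fin 2) (ZMod 3)) Q P
  have hmem : γ * X * γ⁻¹ ∈ f.range := by
    have h1 : X ∈ Q := hQ (Subgroup.mem_zpowers X)
    have h2 : γ * X * γ⁻¹ ∈ (γ • Q : Sylow 2 (GL (Fin 2) (ZMod 3))) := by
      show γ * X * γ⁻¹ ∈ (γ • Q : Sylow 2 (GL (Fin 2) (ZMod 3))).toSubgroup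
      rw [Sylow.coe_subgroup_smul]
      exact (Subgroup.mem_map).2 ⟨X, h1, rfl⟩
    rw [hγ] at h2
    exact h2
  obtain ⟨x, hx⟩ := hmem
  set M : Matrix (Fin 2) (Fin 2) (ZMod 3) := (f x : Matrix (Fin 2) (Fin 2) (ZMod 3)) with hMdef
  have hMe : M = (γ : Matrix (Fin 2) (Fin 2) (ZMod 3)) * X * ((γ⁻¹ : GL (Fin 2) (ZMod 3)) : Matrix (Fin 2) (Fin 2) (ZMod 3)) := by
    rw [hMdef, hx]; rfl
  have hγγ : ((γ⁻¹ : GL (Fin 2) (ZMod 3)) : Matrix (Fin 2) (Fin 2) (ZMod 3)) * (γ : Matrix (Fin 2) (Fin 2) (ZMod 3)) = 1 := by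
    rw [← Units.val_mul, inv_mul_cancel, Units.val_one]
  have hγγ' : (γ : Matrix (Fin 2) (Fin 2) (ZMod 3)) * ((γ⁻¹ : GL (Fin 2) (ZMod 3)) : Matrix (Fin 2) (Fin 2) (ZMod 3)) = 1 := by
    rw [← Units.val_mul, mul_inv_cancel, Units.val_one]
  have hM : M * M = M + 1 := by
    rw [hMe]
    calc _ = (γ : Matrix (Fin 2) (Fin 2) (ZMod 3)) * X * (((γ⁻¹ : GL (Fin 2) (ZMod 3)) : Matrix (Fin 2) (Fin 2) (ZMod 3)) * (γ : Matrix (Fin 2) (Fin 2) (ZMod 3))) * X * ((γ⁻¹ : GL (Fin 2) (ZMod 3)) : Matrix (Fin 2) (Fin 2) (ZMod 3)) := by simp only [mul_assoc]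
      _ = (γ : Matrix (Fin 2) (Fin 2) (ZMod 3)) * (X * X) * ((γ⁻¹ : GL (Fin 2) (ZMod 3)) : Matrix (Fin 2) (Fin 2) (ZMod 3)) := by rw [hγγ, mul_one]; simp only [mul_assoc]
      _ = _ := by rw [hX, mul_add, add_mul, mul_one, hγγ']
  have hMt : M.trace = 1 := by
    rw [hMe, Matrix.trace_mul_comm, ← mul_assoc, hγγ, one_mul, hXt]
  have hxo : orderOf x = 8 := by
    rw [← orderOf_injective f hf]
    exact hord8 _ hM
  obtain ⟨hM3, hM4⟩ := hfacts M hM
  have hfpow : ∀ n : ℕ, (f (x ^ n) : Matrix (Fin 2) (Fin 2) (ZMod 3)) = M ^ n := by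
    intro n
    rw [map_pow, Units.val_pow_eq_pow_val]
  have hyx : y ∉ Subgroup.zpowers x := by
    intro h
    obtain ⟨n, hn⟩ := (Submonoid.mem_powers_iff _ _).1 (mem_powers_iff_mem_zpowers.2 h)
    have h1 : x ^ (n * 2) = 1 := by rw [pow_mul, hn, ← hy, pow_orderOf_eq_one]
    have h2 := orderOf_dvd_of_pow_eq_one h1
    rw [hxo] at h2
    obtain ⟨k, rfl⟩ : ∃ k, n = 4 * k := ⟨n / 4, by omega⟩
    have h3 := hfpow (4 * k)
    rw [hn, pow_mul, hM4] at h3
    rcases neg_one_pow_eq_or (Matrix (Fin 2) (Fin 2) (ZMod 3)) k with h4 | h4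
    · rw [h4] at h3
      have h5 : y = 1 := by
        apply hf
        apply Units.ext
        rw [h3, map_one]; rfl
      rw [h5, orderOf_one] at hy
      omega
    · rw [h3, h4, Matrix.neg_mulVec, Matrix.one_mulVec] at hyv
      apply hv
      funext i
      have := congrFun hyv i
      simp only [Pi.neg_apply] at this
      exact z3_negeq _ this
  have hidx : (Subgroup.zpowers x).index = 2 := by
    have := Subgroup.card_mul_index (Subgroup.zpowers x)
    rw [Nat.card_zpowers, hxo, hcard] at this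
    omega
  haveI hnorm : (Subgroup.zpowers x).Normal := Subgroup.normal_of_index_eq_two hidx
  have hmem2 : y * x * y⁻¹ ∈ Subgroup.zpowers x := hnorm.conj_mem x (Subgroup.mem_zpowers x) y
  obtain ⟨n, hn⟩ := (Submonoid.mem_powers_iff _ _).1 (mem_powers_iff_mem_zpowers.2 hmem2)
  have hn' : y * x * y⁻¹ = x ^ (n % 8) := by
    rw [← hn, ← hxo, pow_mod_orderOf]
  have hlt : n % 8 < 8 := Nat.mod_lt _ (by norm_num)
  -- even exponents impossible
  have heven : ∀ k, y * x * y⁻¹ = x ^ (2 * k) → False := by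
    intro k h
    have h1 : (y * x * y⁻¹) ^ 4 = 1 := by
      rw [h, ← pow_mul]
      apply orderOf_dvd_iff_pow_eq_one.1
      rw [hxo]
      exact ⟨k, by ring⟩
    rw [conj_pow, conj_eq_one_iff] at h1
    have := orderOf_dvd_of_pow_eq_one h1
    rw [hxo] at this
    omega
  have htr : ∀ k, y * x * y⁻¹ = x ^ k → (M ^ k).trace = 1 := by
    intro k h
    rw [← hfpow, ← h, map_mul, map_mul]
    have : ((f y * f x * f y⁻¹ : GL (Fin 2) (ZMod 3)) : Matrix (Fin 2) (Fin 2) (ZMod 3)) = (f y : Matrix (Fin 2) (Fin 2) (ZMod 3)) * M * (f y⁻¹ : Matrix (Fin 2) (Fin 2) (ZMod 3)) := rfl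
    rw [this, Matrix.trace_mul_comm, ← mul_assoc, ← Units.val_mul, ← map_mul, inv_mul_cancel, map_one, Units.val_one, one_mul, hMt]
  have h3 : y * x * y⁻¹ = x ^ 3 := by
    generalize n % 8 = k at *
    interval_cases k
    · exact (heven 0 hn').elim
    · exfalso
      rw [pow_one] at hn'
      have hc : y * x = x * y := mul_inv_eq_iff_eq_mul.1 hn'
      have hYM : (f y : Matrix (Fin 2) (Fin 2) (ZMod 3)) * M = M * (f y : Matrix (Fin 2) (Fin 2) (ZMod 3)) := by
        have := congrArg (fun g : G => (f g : Matrix (Fin 2) (Fin 2) (ZMod 3))) hc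
        simpa [map_mul, Units.val_mul] using this
      have hinj : Function.Injective (fun p : ZMod 3 × ZMod 3 => p.1 • v + p.2 • (M *ᵥ v)) := by
        have hzero : ∀ a b : ZMod 3, a • v + b • (M *ᵥ v) = 0 → a = 0 ∧ b = 0 := by
          intro a b hab
          by_cases hb : b = 0
          · rw [hb, zero_smul, add_zero] at hab
            exact ⟨(smul_eq_zero.1 hab).resolve_right hv, hb⟩
          · exfalso
            have h1 : M *ᵥ v = (-(b⁻¹ * a)) • v := by
              have : b⁻¹ • (a • v + b • (M *ᵥ v)) = 0 := by rw [hab, smul_zero]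
              rw [smul_add, smul_smul, smul_smul, inv_mul_cancel₀ hb, one_smul] at this
              rw [neg_smul]
              exact eq_neg_of_add_eq_zero_right this
            set c := -(b⁻¹ * a) with hc
            have h2 : (M * M) *ᵥ v = (c * c) • v := by
              rw [← Matrix.mulVec_mulVec, h1, Matrix.mulVec_smul, h1, smul_smul]
            rw [hM, Matrix.add_mulVec, Matrix.one_mulVec, h1] at h2
            have h3 : (c + 1 - c * c) • v = 0 := by
              rw [sub_smul, add_smul, one_smul, h2, sub_self]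
            have h4 := (smul_eq_zero.1 h3).resolve_right hv
            exact z3_quad c h4
        rintro ⟨a, b⟩ ⟨c, d⟩ h
        have h' : a • v + b • (M *ᵥ v) = c • v + d • (M *ᵥ v) := h
        obtain ⟨h1, h2⟩ := hzero (a - c) (b - d) (by rw [sub_smul, sub_smul, ← sub_eq_zero.2 h']; abel)
        rw [sub_eq_zero] at h1 h2
        rw [h1, h2]
      have hsurj : Function.Surjective (fun p : ZMod 3 × ZMod 3 => p.1 • v + p.2 • (M *ᵥ v)) := by
        rw [← Finite.injective_iff_surjective_of_equiv (finTwoArrowEquiv (ZMod 3)).symm] 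
        exact hinj
      have hY : (f y : Matrix (Fin 2) (Fin 2) (ZMod 3)) = 1 := by
        apply Matrix.ext_of_mulVec_single
        intro i
        obtain ⟨⟨a, b⟩, hab⟩ := hsurj (Pi.single i 1)
        have hab' : a • v + b • (M *ᵥ v) = Pi.single i 1 := hab
        rw [← hab', Matrix.mulVec_add, Matrix.mulVec_smul, Matrix.mulVec_smul, hyv, Matrix.mulVec_mulVec, hYM, ← Matrix.mulVec_mulVec, hyv, Matrix.one_mulVec]
      have h5 : y = 1 := by
        apply hf
        apply Units.ext
        rw [hY, map_one]; rfl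
      rw [h5, orderOf_one] at hy
      omega
    · exact (heven 1 hn').elim
    · exact hn'
    · exact (heven 2 hn').elim
    · exfalso
      have := htr 5 hn'
      rw [show 5 = 4 + 1 by norm_num, pow_add, hM4, pow_one, neg_one_mul, Matrix.trace_neg, hMt] at this
      exact z3_tr1 this
    · exact (heven 3 hn').elim
    · exfalso
      have := htr 7 hn'
      rw [show 7 = 4 + 3 by norm_num, pow_add, hM4, hM3, neg_one_mul, Matrix.trace_neg, Matrix.trace_add, Matrix.trace_add, hMt, Matrix.trace_one] at this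
      exact z3_tr2 this
  refine ⟨3, le_refl 3, by rw [hcard]; norm_num, x, y, by rw [hxo]; norm_num, hy, ?_⟩
  exact h3

end Cfsg.Agent.H21
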