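import Cfsg.Agent.H21.RG10

set_option autoImplicit false
set_option linter.all false

/-!
Regular linear groups over the prime field, part 11 (helper21): the rows S0688 and S3361.
-/

universe u v w

namespace Cfsg.Agent.H21.RG

theorem row3361
    (q : ℕ) [hq : Fact q.Prime] {V : Type v} [AddCommGroup V] [Module (ZMod q) V] [Finite V] [Nontrivial V]
    {G : Type u} [Group G] [Finite G] (hsol : Group.IsSolvable G)
    (ρ : G →* (V ≃ₗ[ZMod q] V)) (hρ : Function.Injective ρ)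
    (htrans : ∀ v w : V, v ≠ 0 → w ≠ 0 → ∃ g : G, ρ g v = w)
    (hreg : ∀ v : V, v ≠ 0 → ∀ g : G, ρ g v = v → g = 1) :
    ((∃ (F : Type) (_ : Field F) (_ : Fintype F) (e : V ≃+ F),
        ∀ g : G, ∃ (a : F) (σ : F ≃+* F), ∀ v : V, e (ρ g v) = a * σ (e v)) ∨
      Nat.card V ∈ ({25, 49, 121, 529} : Set ℕ)) ∧
    (q ≠ 2 → (∃ N : Subgroup G, N.Normal ∧ N.index = 2) ∨
      (Nat.card V = 25 ∧ Nonempty (G ≃* Matrix.SpecialLinearGroup (Fin 2) (ZMod 3))) ∨
      (Nat.card V = 121 ∧ Nonempty (G ≃* Matrix.SpecialLinearGroup (Fin 2) (ZMod 3) × Multiplicative (ZMod 5)))) := by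
  let σ : G →* Module.End (ZMod q) V := (LinearEquiv.automorphismGroup.toLinearMapMonoidHom).comp ρ
  have hσ : ∀ g v, σ g v = ρ g v := fun g v => rfl
  have R : RegAct σ := ⟨htrans, hreg⟩
  obtain ⟨A, M⟩ := exists_maxAb (G := G)
  obtain ⟨m, ι, K⟩ := exists_fld R A M.nA M.cA
  rcases solv_main R K hsol M with ⟨h1, h2⟩ | ⟨Rq, hRq, e, E, hm, hV, hA, hd, h12, h24, hq4, hcard, hA1⟩
  · refine ⟨Or.inl ?_, fun hq2 => Or.inl (idx_two_self R K hq2 h1)⟩
    obtain ⟨Φ, hΦ⟩ := K.exists_gal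
    exact semilinear R K h2 hΦ
  · refine ⟨Or.inr ?_, fun hq2 => ?_⟩
    · rw [hV]
      rcases hq4 with h | h | h | h <;> rw [h] <;> simp
    · by_cases h : Nat.card (psi Rq e).range = 24
      · exact Or.inl (idx_two_of_24 Rq e h)
      · right
        have h3 : Nat.card (psi Rq e).range = 12 := by
          obtain ⟨k, hk⟩ := h12
          have : 0 < Nat.card (psi Rq e).range := Nat.card_pos
          omega
        rw [h3] at hd hcard
        have h4 := card_add_one R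
        rw [hcard, hV] at h4
        rcases hq4 with rfl | rfl | rfl | rfl
        · left
          have h5 : Nat.card A = 2 := by omega
          refine ⟨by rw [hV]; norm_num, sl23_of E hA (by rw [hcard, h5]) h5⟩
        · exfalso; revert hd; norm_num
        · right
          have h5 : Nat.card A = 10 := by omega
          refine ⟨by rw [hV]; norm_num, sl23_prod E hA (by rw [hcard, h5]) h5⟩
        · exfalso; revert hd; norm_num

section
variable {p : ℕ} [hp : Fact p.Prime] {V : Type v} [AddCommGroup V] [Module (ZMod p) V] [Finite V] (H : Subgroup (V ≃ₗ[ZMod p] V))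

/-- the action of a linear group -/
def act : H →* Module.End (ZMod p) V := (LinearEquiv.automorphismGroup.toLinearMapMonoidHom).comp H.subtype


theorem act_apply (h : H) (v : V) : act H h v = (h : V ≃ₗ[ZMod p] V) v := rfl


theorem regAct (hreg : ∀ v w : V, v ≠ 0 → w ≠ 0 → ∃! h : H, (h : V ≃ₗ[ZMod p] V) v = w) : RegAct (act H) := by
  refine ⟨fun v w hv hw => (hreg v w hv hw).exists, fun v hv g hg => ?_⟩
  exact (hreg v v hv hv).unique hg rfl


theorem nontrivial_of_hI (hI : ∀ A : Subgroup H, A.Normal → IsCyclic A → ∃ W : Submodule (ZMod p) V, W ≠ ⊥ ∧ W ≠ ⊤ ∧ ∀ a ∈ A, ∀ v ∈ W, ((a : H) : V ≃ₗ[ZMod p] V) v ∈ W) : Nontrivial V := by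
  obtain ⟨W, h1, -, -⟩ := hI ⊥ inferInstance inferInstance
  obtain ⟨v, -, hv⟩ := Submodule.exists_mem_ne_zero_of_ne_bot h1
  exact ⟨v, 0, hv⟩

/-- no irreducible cyclic normal subgroup, solvable -/
theorem exc_of_hI (hreg : ∀ v w : V, v ≠ 0 → w ≠ 0 → ∃! h : H, (h : V ≃ₗ[ZMod p] V) v = w)
    (hI : ∀ A : Subgroup H, A.Normal → IsCyclic A → ∃ W : Submodule (ZMod p) V, W ≠ ⊥ ∧ W ≠ ⊤ ∧ ∀ a ∈ A, ∀ v ∈ W, ((a : H) : V ≃ₗ[ZMod p] V) v ∈ W)
    (hsolv : Group.IsSolvable H) {A : Subgroup H} (M : MaxAb A) :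
    (∃ (Rq : Subgroup H) (_ : Rq.Normal) (e : Rq ≃* Q8), Exc A Rq e ∧ Nat.card V = p ^ 2 ∧
      Subgroup.centralizer (A : Set H) = ⊤ ∧ (p + 1) ∣ Nat.card (psi Rq e).range ∧ 12 ∣ Nat.card (psi Rq e).range ∧
      Nat.card (psi Rq e).range ≤ 24 ∧
      (p = 5 ∨ p = 7 ∨ p = 11 ∨ p = 23) ∧ Nat.card H = Nat.card A * Nat.card (psi Rq e).range ∧ Nat.card A ∣ p - 1) := by
  haveI := nontrivial_of_hI H hI
  haveI : Finite (V ≃ₗ[ZMod p] V) := by
    apply Finite.of_injective (fun f : V ≃ₗ[ZMod p] V => (f : V → V))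
    intro f g h
    exact LinearEquiv.ext (congrFun h)
  have R := regAct H hreg
  obtain ⟨m, ι, K⟩ := exists_fld R A M.nA M.cA
  rcases solv_main R K hsolv M with ⟨h1, h2⟩ | ⟨Rq, hRq, e, E, hm, hV, hA, hd, h12, h24, hq4, hcard, hA1⟩
  · exfalso
    obtain ⟨W, hW, hWt, hWA⟩ := hI A M.nA (Fld.cyclic K (fun g h => inj R))
    exact hWt (not_irr_of_one_dim K h2 W hW (fun a ha v hv => hWA a ha v hv))
  · exact ⟨Rq, hRq, e, E, hV, hA, hd, h12, h24, hq4, hcard, hA1⟩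

theorem row688 (hreg : ∀ v w : V, v ≠ 0 → w ≠ 0 → ∃! h : H, (h : V ≃ₗ[ZMod p] V) v = w)
    (hI : ∀ A : Subgroup H, A.Normal → IsCyclic A → ∃ W : Submodule (ZMod p) V, W ≠ ⊥ ∧ W ≠ ⊤ ∧ ∀ a ∈ A, ∀ v ∈ W, ((a : H) : V ≃ₗ[ZMod p] V) v ∈ W)
    (hsolv : Group.IsSolvable H) : Nat.card V = 25 ∨ Nat.card V = 49 ∨ Nat.card V = 121 ∨ Nat.card V = 529 := by
  haveI : Finite (V ≃ₗ[ZMod p] V) := by
    apply Finite.of_injective (fun f : V ≃ₗ[ZMod p] V => (f : V → V))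
    intro f g h
    exact LinearEquiv.ext (congrFun h)
  obtain ⟨A, M⟩ := exists_maxAb (G := H)
  obtain ⟨Rq, hRq, e, E, hV, hA, hd, h12, h24, hq4, hcard, hA1⟩ := exc_of_hI H hreg hI hsolv M
  rw [hV]
  rcases hq4 with h | h | h | h <;> rw [h] <;> simp

end

end Cfsg.Agent.H21.RG
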