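import Cfsg.Agent.H21.RG11

set_option autoImplicit false
set_option linter.all false

/-!
Regular linear groups over the prime field, part 12 (helper21): the non-solvable case, group theory.
-/

universe u v w

namespace Cfsg.Agent.H21.RG

variable {G : Type u} [Group G] [Finite G]

theorem step' (Q : QC G) {A : Subgroup G} (hnA : A.Normal) {E : Subgroup G} (hs : Group.IsSolvable E)
    (hmax : ∀ B : Subgroup G, B.Normal → (∀ a ∈ B, ∀ b ∈ B, a * b = b * a) → A ≤ B → B ≤ E → B = A) (hE : E.Normal)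
    (hAE : A < E) (hEC : ∀ x ∈ E, ∀ a ∈ A, x * a = a * x) :
    ∃ R : Subgroup G, R.Normal ∧ R ≤ E ∧ Nonempty (R ≃* QuaternionGroup 2) := by
  classical
  obtain ⟨N, hN, hAN, hNE, hchief⟩ := H1.exists_chief_above hE hAE
  haveI := hnA
  have hsN : Group.IsSolvable N := by
    haveI := hs
    exact Group.isSolvable_of_isSolvable_injective (f := Subgroup.inclusion hNE) (Subgroup.inclusion_injective hNE)
  obtain ⟨h1, p, hp, hpow, -⟩ := H1.chief_factor_solvable hnA hN hAN hchief hsN
  haveI : Fact p.Prime := ⟨hp⟩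
  have hcen : ∀ x ∈ N, ∀ a ∈ A, x * a = a * x := fun x hx a ha => hEC x (hNE hx) a ha
  have h2 : ⁅A, N⁆ = ⊥ := by
    rw [eq_bot_iff, Subgroup.commutator_le]
    intro a ha x hx
    rw [Subgroup.mem_bot, commutatorElement_eq_one_iff_mul_comm]
    exact (hcen x hx a ha).symm
  have hnil := H1.isNilpotent_of_commutator_le_central h1 h2
  obtain ⟨P⟩ : Nonempty (Sylow p N) := inferInstance
  haveI := hnil
  haveI hPn : (P : Subgroup N).Normal := inferInstance
  haveI : (P : Subgroup N).Characteristic := P.characteristic_of_normal hPn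
  set R : Subgroup G := (P : Subgroup N).map N.subtype with hR
  haveI hRn : R.Normal := by rw [hR]; infer_instance
  have hRp : IsPGroup p R := P.2.map _
  have hRN : R ≤ N := Subgroup.map_subtype_le _
  -- p-elements of N lie in R
  have hpel : ∀ x ∈ N, ∀ k : ℕ, x ^ p ^ k = 1 → x ∈ R := by
    intro x hx k hk
    have h3 : IsPGroup p (Subgroup.zpowers (⟨x, hx⟩ : N)) := by
      rw [IsPGroup.iff_card]
      have h4 : orderOf (⟨x, hx⟩ : N) ∣ p ^ k := orderOf_dvd_of_pow_eq_one (Subtype.ext hk)
      obtain ⟨j, -, hj⟩ := (Nat.dvd_prime_pow hp).1 h4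
      exact ⟨j, by rw [Nat.card_zpowers, hj]⟩
    obtain ⟨P', hP'⟩ := h3.exists_le_sylow
    have h5 : P' = P := by
      haveI := P.unique_of_normal hPn
      exact Subsingleton.elim _ _
    rw [h5] at hP'
    exact ⟨⟨x, hx⟩, hP' (Subgroup.mem_zpowers _), rfl⟩
  have hNAR : N ≤ A ⊔ R := by
    intro x hx
    have hpos := orderOf_pos x
    obtain ⟨k, m, hm, hkm⟩ := Nat.exists_eq_pow_mul_and_not_dvd hpos.ne' p hp.ne_one
    have h3 : x ^ p ^ k ∈ A := by
      rcases Nat.eq_zero_or_pos k with h0 | h0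
      · -- x has order coprime to p
        rw [h0, pow_zero, one_mul] at hkm
        rw [h0, pow_zero, pow_one]
        have h4 : Nat.Coprime (orderOf x) p := by
          rw [hkm]; exact (Nat.Prime.coprime_iff_not_dvd hp).2 hm |>.symm
        obtain ⟨y, hy⟩ := exists_pow_eq_self_of_coprime (n := p) h4.symm
        rw [← hy]
        exact A.pow_mem (hpow x hx) y
      · obtain ⟨j, rfl⟩ := Nat.exists_eq_succ_of_ne_zero h0.ne'
        rw [pow_succ', pow_mul]
        exact A.pow_mem (hpow x hx) _
    have h4 : x ^ m ∈ R := by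
      apply hpel _ (N.pow_mem hx m) k
      rw [← pow_mul, mul_comm, ← hkm, pow_orderOf_eq_one]
    have h5 : Nat.Coprime (p ^ k) m := Nat.Coprime.pow_left _ ((Nat.Prime.coprime_iff_not_dvd hp).2 hm)
    have h6 : (1 : ℤ) = (p ^ k : ℕ) * Nat.gcdA (p ^ k) m + (m : ℕ) * Nat.gcdB (p ^ k) m := by
      rw [← Nat.gcd_eq_gcd_ab, h5.gcd_eq_one]; rfl
    have h7 : x = (x ^ p ^ k) ^ (Nat.gcdA (p ^ k) m) * (x ^ m) ^ (Nat.gcdB (p ^ k) m) := by
      rw [← zpow_natCast, ← zpow_natCast, ← zpow_mul, ← zpow_mul, ← zpow_add, ← h6, zpow_one]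
    rw [h7]
    exact mul_mem (Subgroup.mem_sup_left (A.zpow_mem h3 _)) (Subgroup.mem_sup_right (R.zpow_mem h4 _))
  have hRnc : ¬ ∀ a ∈ R, ∀ b ∈ R, a * b = b * a := by
    intro hRc
    apply hAN.ne'
    apply hmax N hN _ hAN.le hNE
    intro x hx y hy
    have h3 : ∀ r ∈ R, A ⊔ R ≤ Subgroup.centralizer ({r} : Set G) := by
      intro r hr
      apply sup_le
      · intro a ha
        rw [Subgroup.mem_centralizer_singleton_iff]
        exact (hcen r (hRN hr) a ha).symm
      · intro s hs
        rw [Subgroup.mem_centralizer_singleton_iff]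
        exact hRc s hs r hr
    have h4 : A ⊔ R ≤ Subgroup.centralizer ({y} : Set G) := by
      apply sup_le
      · intro a ha
        rw [Subgroup.mem_centralizer_singleton_iff]
        exact (hcen y hy a ha).symm
      · intro s hs
        rw [Subgroup.mem_centralizer_singleton_iff]
        have := h3 s hs (hNAR hy)
        rw [Subgroup.mem_centralizer_singleton_iff] at this
        exact this.symm
    have h5 := h4 (hNAR hx)
    rw [Subgroup.mem_centralizer_singleton_iff] at h5
    exact h5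
  rcases Q.pg p R hRp with hc | ⟨rfl, n, hn, ⟨e⟩⟩
  · exfalso
    apply hRnc
    intro a ha b hb
    haveI := hc
    have := cyc_mul_comm (⟨a, ha⟩ : R) ⟨b, hb⟩
    exact congrArg Subtype.val this
  · have h1 : n = 1 := by
      apply quat_step n hn
      intro x y
      obtain ⟨x, rfl⟩ := e.surjective x
      obtain ⟨y, rfl⟩ := e.surjective y
      rw [← map_mul, ← map_mul, ← map_mul]
      congr 1
      apply Subtype.ext
      have h3 := hpow x (hRN x.2)
      rw [pow_two] at h3
      exact (hcen y (hRN y.2) _ h3).symm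
    subst h1
    refine ⟨R, hRn, hRN.trans hNE, ⟨?_⟩⟩
    simpa using e


end Cfsg.Agent.H21.RG
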