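import Cfsg.Agent.H21.RG12
import Cfsg.Agent.H21.Ord120

set_option autoImplicit false
set_option linter.all false

/-!
Regular linear groups over the prime field, part 13 (helper21): the non-solvable case, the icosahedral subgroup.
-/

universe u v w

namespace Cfsg.Agent.H21.RG

open scoped commutatorElement

theorem sl_inv : ∀ w : SL25, w ^ 3 = 1 → ∃ g : SL25, g * w * g⁻¹ = w⁻¹ := by decide +kernel

section ico
variable {G : Type u} [Group G] [Finite G] {B : Type w} [Ring B] [Algebra ℚ B] [Nontrivial B] {τ : G →* B} {D : ZF.ZD τ}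
  {x y : G} (I : ZF.Ico D x y)
include I

theorem inv_conj {w : G} (hw : orderOf w = 3) : ∃ g ∈ Subgroup.closure {x, y}, g * w * g⁻¹ = w⁻¹ := by
  obtain ⟨e⟩ := D.ico_iso I.hx I.hy I.h10
  have hwL := I.mem hw
  have h3 : w ^ 3 = 1 := by have := pow_orderOf_eq_one w; rwa [hw] at this
  obtain ⟨g, hg⟩ := sl_inv (e ⟨w, hwL⟩) (by
    rw [← map_pow]
    have : (⟨w, hwL⟩ : Subgroup.closure {x, y}) ^ 3 = 1 := Subtype.ext h3
    rw [this, map_one])
  obtain ⟨g, rfl⟩ := e.surjective g
  rw [← map_inv, ← map_mul, ← map_mul, ← map_inv] at hg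
  exact ⟨g, g.2, congrArg Subtype.val (e.injective hg)⟩

theorem perfect_L : commutator (Subgroup.closure {x, y}) = ⊤ := by
  set L := Subgroup.closure {x, y} with hL
  have key : ∀ w (hw : orderOf w = 3), w ∈ (commutator L).map L.subtype := by
    intro w hw
    obtain ⟨g, hg, h⟩ := inv_conj I hw
    have h3 : w ^ 3 = 1 := by have := pow_orderOf_eq_one w; rwa [hw] at this
    refine ⟨⁅(⟨g, hg⟩ : L), ⟨w, I.mem hw⟩⁆, Subgroup.commutator_mem_commutator (Subgroup.mem_top _) (Subgroup.mem_top _), ?_⟩
    show g * w * g⁻¹ * w⁻¹ = w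
    rw [h]
    have : w * w * w = 1 := by rw [pow_succ, pow_two] at h3; exact h3
    calc w⁻¹ * w⁻¹ = w⁻¹ * w⁻¹ * (w * w * w) := by rw [this, mul_one]
      _ = w := by group
  rw [eq_top_iff]
  intro l _
  have h1 : L ≤ (commutator L).map L.subtype := by
    rw [hL, Subgroup.closure_le]
    rintro t (rfl | rfl)
    · exact key _ I.hx
    · exact key _ I.hy
  obtain ⟨c, hc, hcl⟩ := h1 l.2
  have : c = l := Subtype.ext hcl
  rwa [← this]

/-- cyclic normal subgroups are centralized -/
theorem cyc_central (A : Subgroup G) (hA : A.Normal) (hc : IsCyclic A) : A ≤ Subgroup.centralizer (Subgroup.closure {x, y} : Set G) := by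
  obtain ⟨⟨a, ha⟩, hgen⟩ := hc.exists_generator
  have hgen' : ∀ b ∈ A, ∃ k : ℤ, a ^ k = b := by
    intro b hb
    obtain ⟨k, hk⟩ := Subgroup.mem_zpowers_iff.1 (hgen ⟨b, hb⟩)
    exact ⟨k, congrArg Subtype.val hk⟩
  have key : ∀ w, orderOf w = 3 → w * a = a * w := by
    intro w hw
    obtain ⟨g, -, hg⟩ := inv_conj I hw
    obtain ⟨k, hk⟩ := hgen' (w * a * w⁻¹) (hA.conj_mem a ha w)
    obtain ⟨i, hi⟩ := hgen' (g⁻¹ * a * g) (by have := hA.conj_mem a ha g⁻¹; rwa [inv_inv] at this)
    have h1 : w⁻¹ * a * w = a ^ k := by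
      calc w⁻¹ * a * w = (g * w * g⁻¹) * a * (g * w * g⁻¹)⁻¹ := by rw [hg]; group
        _ = g * (w * (g⁻¹ * a * g) * w⁻¹) * g⁻¹ := by group
        _ = g * (w * a ^ i * w⁻¹) * g⁻¹ := by rw [hi]
        _ = g * ((w * a * w⁻¹) ^ i) * g⁻¹ := by rw [conj_zpow]
        _ = g * ((a ^ k) ^ i) * g⁻¹ := by rw [hk]
        _ = g * ((a ^ i) ^ k) * g⁻¹ := by rw [← zpow_mul, ← zpow_mul, mul_comm]
        _ = g * ((g⁻¹ * a * g) ^ k) * g⁻¹ := by rw [hi]
        _ = (g * (g⁻¹ * a * g) * g⁻¹) ^ k := by rw [conj_zpow]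
        _ = a ^ k := by congr 1; group
    rw [hk] at h1
    have h3 : w * w * w = 1 := by
      have := pow_orderOf_eq_one w
      rw [hw, pow_succ, pow_two] at this
      exact this
    have h4 : w * w * a = a * (w * w) := by
      calc w * w * a = w * (w * a * w⁻¹) * w := by group
        _ = w * (w⁻¹ * a * w) * w := by rw [h1]
        _ = a * (w * w) := by group
    calc w * a = (w * w * w) * w * a := by rw [h3, one_mul]
      _ = w * w * (w * w * a) := by group
      _ = w * w * (a * (w * w)) := by rw [h4]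
      _ = (w * w * a) * (w * w) := by group
      _ = a * (w * w) * (w * w) := by rw [h4]
      _ = a * (w * w * w) * w := by group
      _ = a * w := by rw [h3, mul_one]
  intro b hb
  obtain ⟨k, rfl⟩ := hgen' b hb
  exact I.mem_centralizer ((show Commute x a from key x I.hx).zpow_right k).symm.eq ((show Commute y a from key y I.hy).zpow_right k).symm.eq

/-- normal quaternion groups are centralized -/
theorem quat_central (R : Subgroup G) (hR : R.Normal) (e : R ≃* Q8) : R ≤ Subgroup.centralizer (Subgroup.closure {x, y} : Set G) := by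
  haveI : Group.IsSolvable (MulAut Q8) := solvable_of_card_lt_60 _ rfl (lt_of_le_of_lt card_mulAut_le (by norm_num))
  have h1 : ∀ l ∈ Subgroup.closure {x, y}, psi R e l = 1 := by
    intro l hl
    exact ZF.perfect_hom (perfect_L I) ((psi R e).comp (Subgroup.closure {x, y}).subtype) ⟨l, hl⟩
  intro r hr
  rw [Subgroup.mem_centralizer_iff]
  intro l hl
  have h2 := (psi_eq_one R e l).1 (h1 l hl)
  rw [Subgroup.mem_centralizer_iff] at h2
  exact (h2 r hr).symm

/-- the centralizer of `A` in `C(L)` -/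
theorem inter_eq (Q : QC G) {A : Subgroup G} (M : MaxAb A) (hc : IsCyclic A) :
    Subgroup.centralizer (Subgroup.closure {x, y} : Set G) ⊓ Subgroup.centralizer (A : Set G) = A := by
  haveI := M.nA
  haveI := I.normal
  set C := Subgroup.centralizer (Subgroup.closure {x, y} : Set G) with hC
  have hAC : A ≤ C := cyc_central I A M.nA hc
  have hAA : A ≤ Subgroup.centralizer (A : Set G) := by
    intro a ha
    rw [Subgroup.mem_centralizer_iff]
    intro b hb
    exact M.cA b hb a ha
  by_contra hcon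
  have hlt : A < C ⊓ Subgroup.centralizer (A : Set G) := lt_of_le_of_ne (le_inf hAC hAA) (Ne.symm hcon)
  haveI : Group.IsSolvable C := I.solvable_centralizer
  obtain ⟨R, hR, hRE, ⟨e⟩⟩ := step' Q M.nA (E := C ⊓ Subgroup.centralizer (A : Set G))
    (Group.isSolvable_of_isSolvable_injective (f := Subgroup.inclusion (inf_le_left : C ⊓ Subgroup.centralizer (A : Set G) ≤ C)) (Subgroup.inclusion_injective _))
    (fun B hB hBc hAB _ => M.max B hB hBc hAB) inferInstance hlt (by
      intro z hz a ha
      have := (Subgroup.mem_inf.1 hz).2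
      rw [Subgroup.mem_centralizer_iff] at this
      exact (this a ha).symm)
  have h4 : orderOf ((e.symm (QuaternionGroup.a 1) : R) : G) = 4 := by
    rw [Subgroup.orderOf_coe, MulEquiv.orderOf_eq]
    exact orderOf_eq_prime_pow (p := 2) (n := 1) (by decide) (by decide)
  exact I.no_four (Subgroup.mem_inf.1 (hRE (e.symm (QuaternionGroup.a 1)).2)).1 h4

theorem z_in {A : Subgroup G} (M : MaxAb A) : (x * y) ^ 5 ∈ A := by
  haveI := M.nA
  set z := (x * y) ^ 5 with hz
  have hzn : (Subgroup.zpowers z).Normal := by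
    constructor
    intro n hn g
    obtain ⟨k, rfl⟩ := Subgroup.mem_zpowers_iff.1 hn
    have h1 : Commute g z := (I.z_comm g).symm
    rw [(h1.zpow_right k).eq, mul_assoc, mul_inv_cancel, mul_one]
    exact hn
  have h1 : A ⊔ Subgroup.zpowers z = A := by
    apply M.max _ inferInstance _ le_sup_left
    intro a ha b hb
    obtain ⟨a1, ha1, t, ht, rfl⟩ := Subgroup.mem_sup_of_normal_left.1 ha
    obtain ⟨b1, hb1, s, hs, rfl⟩ := Subgroup.mem_sup_of_normal_left.1 hb
    obtain ⟨i, rfl⟩ := Subgroup.mem_zpowers_iff.1 ht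
    obtain ⟨j, rfl⟩ := Subgroup.mem_zpowers_iff.1 hs
    have hc : ∀ (g : G) (k : ℤ), Commute g (z ^ k) := fun g k => (show Commute g z from (I.z_comm g).symm).zpow_right k
    have h2 : Commute a1 b1 := M.cA a1 ha1 b1 hb1
    exact ((h2.mul_right (hc a1 j)).mul_left ((hc (b1) i).symm.mul_right ((Commute.refl z).zpow_zpow i j))).eq
  rw [← h1]
  exact Subgroup.mem_sup_right (Subgroup.mem_zpowers z)

theorem inter_card : (Subgroup.closure {x, y} ⊓ Subgroup.centralizer (Subgroup.closure {x, y} : Set G) : Subgroup G) = Subgroup.zpowers ((x * y) ^ 5) := I.inf_eq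

/-- the index of `C(L)` in a subgroup containing `L` -/
theorem relIndex_ge (E : Subgroup G) (hE : Subgroup.closure {x, y} ≤ E) :
    60 ∣ (Subgroup.centralizer (Subgroup.closure {x, y} : Set G)).relIndex E ∧
    (Subgroup.centralizer (Subgroup.closure {x, y} : Set G)).relIndex E ≤ 120 := by
  classical
  haveI := I.normal
  set C := Subgroup.centralizer (Subgroup.closure {x, y} : Set G) with hC
  set L := Subgroup.closure {x, y} with hL
  haveI : C.Normal := by rw [hC]; infer_instance
  have h3 : C.relIndex L = 60 := by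
    have h4 : Nat.card (C.subgroupOf L) * (C.subgroupOf L).index = Nat.card L := (C.subgroupOf L).card_mul_index
    have h5 : Nat.card (C.subgroupOf L) = 2 := by
      have h6 : Nat.card (C.subgroupOf L) = Nat.card (L ⊓ C : Subgroup G) := by
        rw [← Subgroup.inf_subgroupOf_left]
        exact Nat.card_congr (Subgroup.subgroupOfEquivOfLe inf_le_left).toEquiv
      rw [h6, I.inf_eq, Nat.card_zpowers, I.z_order]
    rw [h5, I.card_L] at h4
    have : C.relIndex L = (C.subgroupOf L).index := rfl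
    omega
  constructor
  · rw [← h3, ← Subgroup.relIndex_subgroupOf hE]
    exact Subgroup.relIndex_dvd_index_of_normal _ _
  · have h4 : C.relIndex E ∣ C.index := Subgroup.relIndex_dvd_index_of_normal _ _
    exact (Nat.le_of_dvd (Nat.pos_of_ne_zero Subgroup.FiniteIndex.index_ne_zero) h4).trans I.index_centralizer

end ico

end Cfsg.Agent.H21.RG
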