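import Cfsg.Agent.H21.RG13

set_option autoImplicit false
set_option linter.all false

/-!
Regular linear groups over the prime field, part 14 (helper21): the non-solvable case, numbers and main theorem.
-/

universe u v w

namespace Cfsg.Agent.H21.RG

theorem seven_pow (m : ℕ) (hm : 4 ≤ m) : 120 * m < 7 ^ m + 1 := by
  induction m, hm using Nat.le_induction with
  | base => norm_num
  | succ n hn ih => rw [pow_succ]; omega

theorem numerics2 {q m e gd dd cA g : ℕ} (hq : q.Prime) (hq2 : q ≠ 2) (hq3 : q ≠ 3) (hq5 : q ≠ 5) (hm : m ≠ 0) (he : 2 ≤ e)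
    (h1 : g + 1 = (q ^ m) ^ e) (h2 : g = cA * dd * gd) (h3 : gd ∣ m) (h4 : dd = 60 ∨ dd = 120)
    (h6 : cA ∣ q ^ m - 1) (h7 : 2 ∣ cA) (h8 : ¬ 3 ∣ cA) (h9 : ¬ 5 ∣ cA) :
    m = 1 ∧ e = 2 ∧ gd = 1 ∧ dd = 60 ∧ ((q = 11 ∧ cA = 2) ∨ (q = 29 ∧ cA = 14) ∨ (q = 59 ∧ cA = 58)) := by
  have hq7 : 7 ≤ q := by
    have h := hq.two_le
    by_contra hcon
    have h' : q = 4 ∨ q = 6 := by omega
    rcases h' with h' | h' <;> rw [h'] at hq <;> exact absurd hq (by norm_num)
  have hQ5 : 7 ^ m ≤ q ^ m := Nat.pow_le_pow_left hq7 m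
  have hgdm : gd ≤ m := Nat.le_of_dvd (Nat.pos_of_ne_zero hm) h3
  have hdd : dd ≤ 120 := by omega
  obtain ⟨a', ha'⟩ := h6
  set Q := q ^ m with hQ
  have hQ1 : 7 ≤ Q := by
    calc 7 = 7 ^ 1 := by norm_num
      _ ≤ 7 ^ m := Nat.pow_le_pow_right (by norm_num) (Nat.pos_of_ne_zero hm)
      _ ≤ Q := hQ5
  have hgeom : (∑ i ∈ Finset.range e, Q ^ i) * (Q - 1) = Q ^ e - 1 := by
    rw [Nat.geomSum_eq (by omega) e]
    exact Nat.div_mul_cancel (Nat.sub_one_dvd_pow_sub_one Q e)
  set S := ∑ i ∈ Finset.range e, Q ^ i with hS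
  have hcA : 0 < cA := by
    rcases Nat.eq_zero_or_pos cA with h | h
    · rw [h] at ha'; omega
    · exact h
  have hSa : S * a' = dd * gd := by
    have h8 : S * (cA * a') = cA * dd * gd := by
      rw [← ha', hgeom, ← h2]; omega
    have h9 : cA * (S * a') = cA * (dd * gd) := by rw [← mul_assoc cA dd gd, ← h8]; ring
    exact Nat.eq_of_mul_eq_mul_left hcA h9
  have ha'0 : 0 < a' := by
    rcases Nat.eq_zero_or_pos a' with h | h
    · rw [h] at ha'; omega
    · exact h
  have hSle : S ≤ 120 * m := by
    calc S ≤ S * a' := Nat.le_mul_of_pos_right _ ha'0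
      _ = dd * gd := hSa
      _ ≤ 120 * m := Nat.mul_le_mul hdd hgdm
  have hS2 : Q + 1 ≤ S := by
    have h8 : ∑ i ∈ Finset.range 2, Q ^ i ≤ S := Finset.sum_le_sum_of_subset (Finset.range_mono he)
    rw [Finset.sum_range_succ, Finset.sum_range_one] at h8
    simp only [pow_zero, pow_one] at h8
    omega
  have hm3 : m ≤ 3 := by
    by_contra hcon
    have := seven_pow m (by omega)
    omega
  have hQm : m ≠ 1 → 49 ≤ Q := by
    intro h
    calc 49 = 7 ^ 2 := by norm_num
      _ ≤ 7 ^ m := Nat.pow_le_pow_right (by norm_num) (by omega)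
      _ ≤ Q := hQ5
  have he2 : e = 2 := by
    by_contra hcon
    have he3 : 3 ≤ e := by omega
    have h8 : 1 + Q + Q ^ 2 ≤ S := by
      have h8 : ∑ i ∈ Finset.range 3, Q ^ i ≤ S := Finset.sum_le_sum_of_subset (Finset.range_mono he3)
      rw [Finset.sum_range_succ, Finset.sum_range_succ, Finset.sum_range_one] at h8
      simp only [pow_zero, pow_one] at h8
      omega
    by_cases h10 : m = 1
    · rw [h10] at hSle hgdm
      have hQ9 : Q ≤ 10 := by nlinarith
      have hQq : Q = q := by rw [hQ, h10, pow_one]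
      have hq7' : q = 7 := by
        rw [hQq] at hQ9
        interval_cases q
        · rfl
        · exact absurd hq (by norm_num)
        · exact absurd hq (by norm_num)
        · exact absurd hq (by norm_num)
      have hQ7 : Q = 7 := by rw [hQq, hq7']
      have he4 : e = 3 := by
        by_contra hcon2
        have he4 : 4 ≤ e := by omega
        have h8 : ∑ i ∈ Finset.range 4, Q ^ i ≤ S := Finset.sum_le_sum_of_subset (Finset.range_mono he4)
        rw [hQ7] at h8
        have : ∑ i ∈ Finset.range 4, 7 ^ i = 400 := by decide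
        omega
      have hS57 : S = 57 := by
        rw [hS, hQ7, he4]; decide
      rw [hS57] at hSa
      have hgd : gd = 0 ∨ gd = 1 := by omega
      rcases hgd with h | h <;> rcases h4 with h' | h' <;> rw [h, h'] at hSa <;> omega
    · have := hQm h10
      nlinarith
  have hSe : S = Q + 1 := by
    rw [hS, he2, Finset.sum_range_succ, Finset.sum_range_one, pow_zero, pow_one]; ring
  rw [hSe] at hSa hSle
  have hm1 : m = 1 := by
    by_contra hcon
    have hm2 : m = 2 ∨ m = 3 := by omega
    rcases hm2 with hm2 | hm2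
    · rw [hm2] at hQ hSle hgdm h3
      have hq15 : q ≤ 15 := by nlinarith
      have hgd : gd = 1 ∨ gd = 2 := by
        have : gd ≠ 0 := by rintro rfl; omega
        omega
      have hqq : q = 7 ∨ q = 11 ∨ q = 13 := by
        interval_cases q <;> first | omega | (exfalso; revert hq; norm_num)
      rcases hqq with h | h | h <;> rw [h] at hQ <;> norm_num at hQ <;> rw [hQ] at hSa <;>
        rcases hgd with h' | h' <;> rcases h4 with h'' | h'' <;> rw [h', h''] at hSa <;> omega
    · rw [hm2] at hQ hSle hgdm h3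
      have hq7' : q = 7 := by
        have : q < 8 := by
          by_contra hcon3
          have : 8 ^ 3 ≤ q ^ 3 := Nat.pow_le_pow_left (by omega) 3
          rw [← hQ] at this
          norm_num at this
          omega
        omega
      rw [hq7'] at hQ
      norm_num at hQ
      rw [hQ] at hSa
      have hgd : gd = 1 ∨ gd = 3 := (Nat.dvd_prime Nat.prime_three).1 h3
      rcases hgd with h' | h' <;> rcases h4 with h'' | h'' <;> rw [h', h''] at hSa <;> omega
  subst hm1
  have hgd1 : gd = 1 := Nat.dvd_one.1 h3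
  rw [pow_one] at hQ
  rw [hQ] at hSa ha' hSle
  rw [hgd1, mul_one] at hSa
  refine ⟨rfl, he2, hgd1, ?_⟩
  have hq119 : q ≤ 119 := by omega
  have ha60 : a' ≤ 15 := by nlinarith
  rcases h4 with h4 | h4
  · rw [h4] at hSa
    refine ⟨h4, ?_⟩
    interval_cases a' <;> omega
  · exfalso
    rw [h4] at hSa
    interval_cases a' <;> first | omega | (have : q = 119 := by omega
                                           rw [this] at hq; revert hq; norm_num) | (have : q = 39 := by omega
                                                                                    rw [this] at hq; revert hq; norm_num)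

end Cfsg.Agent.H21.RG
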