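import Cfsg.Agent.H21.RG14

set_option autoImplicit false
set_option linter.all false

/-!
Regular linear groups over the prime field, part 15 (helper21): the non-solvable case, main theorem.
-/

universe u v w

namespace Cfsg.Agent.H21.RG

variable {q : ℕ} [hq : Fact q.Prime] {V : Type v} [AddCommGroup V] [Module (ZMod q) V] [Finite V] [Nontrivial V]
  {G : Type u} [Group G] [Finite G]
  {ρ : G →* Module.End (ZMod q) V} (R : RegAct ρ)

include R in
theorem exists_ico' (hns : ¬ Group.IsSolvable G) : ∃ (B : Type u) (_ : Ring B) (_ : Algebra ℚ B) (_ : Nontrivial B) (τ : G →* B)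
    (D : ZF.ZD τ) (x y : G), ZF.Ico D x y := by
  obtain ⟨B, i1, i2, i3, τ, D⟩ := ZF.zd_of_VF (ZF.exists_VF_of_module (G := G) ρ (fun g hg v hv => by
    by_contra h
    exact hg (R.free v h g hv)))
  refine ⟨B, i1, i2, i3, τ, D, ?_⟩
  by_contra hcon
  push Not at hcon
  apply hns
  apply ZF.ZD.solvable_of_no_ico (A := B) (Nat.card G) G τ D _ le_rfl
  intro x y hx hy h
  exact hcon x y ⟨hx, hy, h⟩

variable {A : Subgroup G} {m : ℕ} {ι : GaloisField q m →+* Module.End (ZMod q) V} (K : Fld ρ A m ι)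

include R K in
theorem nonsolv_main (M : MaxAb A) {B : Type w} [Ring B] [Algebra ℚ B] [Nontrivial B] {τ : G →* B}
    {D : ZF.ZD τ} {x y : G} (I : ZF.Ico D x y) :
    m = 1 ∧ Nat.card V = q ^ 2 ∧ Subgroup.centralizer (A : Set G) = ⊤ ∧
      Subgroup.centralizer (Subgroup.closure {x, y} : Set G) = A ∧ Subgroup.closure {x, y} ⊔ A = ⊤ ∧
      Nat.card G = Nat.card A * 60 ∧
      ((q = 11 ∧ Nat.card A = 2) ∨ (q = 29 ∧ Nat.card A = 14) ∨ (q = 59 ∧ Nat.card A = 58)) := by
  classical
  have hinj : ∀ g h, ρ g = ρ h → g = h := fun g h => inj R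
  haveI := M.nA
  haveI := I.normal
  have hAc : IsCyclic A := Fld.cyclic K hinj
  have hQ := qc R
  have hCA := inter_eq I hQ M hAc
  obtain ⟨e, he, hV, he1⟩ := K.card_V
  obtain ⟨Φ, hΦ⟩ := K.exists_gal
  have hker : Φ.ker = Subgroup.centralizer (A : Set G) := by
    ext g
    rw [MonoidHom.mem_ker, K.gal_eq_one hΦ hinj, Subgroup.mem_centralizer_iff]
    constructor
    · intro h a ha; exact (h a ha).symm
    · intro h a ha; exact (h a ha).symm
  set L := Subgroup.closure {x, y} with hL
  set C := Subgroup.centralizer (L : Set G) with hC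
  have hAC : A ≤ C := cyc_central I A M.nA hAc
  have hLD : L ≤ Subgroup.centralizer (A : Set G) := by
    rw [Subgroup.le_centralizer_iff]; exact hAC
  have h60 : 60 ∣ C.relIndex (Subgroup.centralizer (A : Set G)) := (relIndex_ge I (Subgroup.centralizer (A : Set G)) hLD).1
  have h120 : C.relIndex (Subgroup.centralizer (A : Set G)) ≤ 120 := (relIndex_ge I (Subgroup.centralizer (A : Set G)) hLD).2
  have hDcard : Nat.card (Subgroup.centralizer (A : Set G)) = Nat.card A * C.relIndex (Subgroup.centralizer (A : Set G)) := by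
    have h1 := (C.subgroupOf (Subgroup.centralizer (A : Set G))).card_mul_index
    rw [← h1]
    congr 1
    rw [← Subgroup.inf_subgroupOf_right]
    rw [Nat.card_congr (Subgroup.subgroupOfEquivOfLe inf_le_right).toEquiv, hCA]
  have h1 := Subgroup.card_mul_index Φ.ker
  rw [Subgroup.index_ker, hker, hDcard] at h1
  have hLG : 120 ∣ Nat.card G := by
    rw [← I.card_L]; exact Subgroup.card_subgroup_dvd_card _
  have hqd := q_not_dvd R
  have hq2 : q ≠ 2 := by
    rintro rfl
    exact hqd ((by norm_num : 2 ∣ 120).trans hLG)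
  have hq3 : q ≠ 3 := by
    rintro rfl
    exact hqd ((by norm_num : 3 ∣ 120).trans hLG)
  have hq5 : q ≠ 5 := by
    rintro rfl
    exact hqd ((by norm_num : 5 ∣ 120).trans hLG)
  have he2 : 2 ≤ e := by
    by_contra hcon
    have he1' : e = 1 := by omega
    have hc := fun x hx y hy => comm_of_one_dim K (he1 he1') hinj (x := x) (y := y) hx hy
    have hx : x ∈ L := Subgroup.subset_closure (by simp)
    have hy : y ∈ L := Subgroup.subset_closure (by simp)
    have h3 := hc x (hLD hx) y (hLD hy)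
    have h4 : (x * y) ^ 3 = 1 := by
      have h5 : Commute x y := h3
      have h6 := pow_orderOf_eq_one x
      have h7 := pow_orderOf_eq_one y
      rw [I.hx] at h6
      rw [I.hy] at h7
      rw [h5.mul_pow, h6, h7, one_mul]
    have := orderOf_dvd_of_pow_eq_one h4
    rw [I.h10] at this
    revert this; norm_num
  have hcard := card_add_one R
  have hdd : C.relIndex (Subgroup.centralizer (A : Set G)) = 60 ∨ C.relIndex (Subgroup.centralizer (A : Set G)) = 120 := by
    obtain ⟨k, hk⟩ := h60
    have h0 : C.relIndex (Subgroup.centralizer (A : Set G)) ≠ 0 := Subgroup.FiniteIndex.index_ne_zero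
    generalize C.relIndex (Subgroup.centralizer (A : Set G)) = t at *
    omega
  haveI : Fact (Nat.Prime 3) := ⟨Nat.prime_three⟩
  haveI : Fact (Nat.Prime 5) := ⟨by norm_num⟩
  obtain ⟨k1, k2, k3, k4, k5⟩ := numerics2 (q := q) (m := m) (e := e) (gd := Nat.card Φ.range)
    (dd := C.relIndex (Subgroup.centralizer (A : Set G)))
    (cA := Nat.card A) (g := Nat.card G) hq.out hq2 hq3 hq5 K.hm he2 (by rw [hcard, hV]) h1.symm K.card_gal hdd
    (K.card_A hinj) (by
      have h2 := Subgroup.orderOf_dvd_natCard A (z_in I M)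
      rwa [I.z_order] at h2)
    (ZF.Ico.prime_not_dvd (fun c hc => I.no_three (hAC hc)))
    (ZF.Ico.prime_not_dvd (fun c hc => I.no_five (hAC hc)))
  have hD : Subgroup.centralizer (A : Set G) = ⊤ := by
    rw [← hker, ← Subgroup.index_eq_one, Subgroup.index_ker]
    exact k3
  have hCeq : C = A := by
    rw [hD, inf_top_eq] at hCA
    exact hCA
  have hG : Nat.card G = Nat.card A * 60 := by rw [← h1, k3, k4, mul_one]
  refine ⟨k1, ?_, hD, hCeq, ?_, hG, k5⟩
  · rw [hV, k1, k2, pow_one]
  · -- L A has the right order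
    have h2 : C.relIndex (L ⊔ C) = C.relIndex L := Subgroup.relIndex_sup_right L C
    have h3 := relIndex_ge I L le_rfl
    have h4 : C.relIndex (L ⊔ C) * (L ⊔ C).index = C.index := Subgroup.relIndex_mul_index le_sup_right
    have h5 : C.index = 60 := by
      rw [hD] at k4
      rw [← Subgroup.relIndex_top_right]; exact k4
    rw [← hC] at h3
    rw [h2, h5] at h4
    rw [← hCeq, ← Subgroup.index_eq_one]
    have h6 : C.relIndex L ≠ 0 := Subgroup.FiniteIndex.index_ne_zero
    obtain ⟨k, hk⟩ := h3.1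
    have hk1 : 1 ≤ k := by
      rcases Nat.eq_zero_or_pos k with h | h
      · rw [h] at hk; omega
      · exact h
    have h7 : 60 ≤ C.relIndex L := by omega
    have h8 : (L ⊔ C).index ≠ 0 := Subgroup.FiniteIndex.index_ne_zero
    by_contra hne
    have h9 : 2 ≤ (L ⊔ C).index := by omega
    have : 60 * 2 ≤ C.relIndex L * (L ⊔ C).index := Nat.mul_le_mul h7 h9
    omega

/-- the isomorphism type -/
theorem iso_prod {B : Type w} [Ring B] [Algebra ℚ B] [Nontrivial B] {τ : G →* B}
    {D : ZF.ZD τ} {x y : G} (I : ZF.Ico D x y) {A : Subgroup G} (hA : Subgroup.centralizer (A : Set G) = ⊤) (p : ℕ) (hp : p.Prime)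
    (hp2 : p = 7 ∨ p = 29) (hcA : Nat.card A = 2 * p) (hG : Nat.card G = 120 * p) :
    Nonempty (G ≃* Matrix.SpecialLinearGroup (Fin 2) (ZMod 5) × Multiplicative (ZMod p)) := by
  classical
  haveI : Fact p.Prime := ⟨hp⟩
  obtain ⟨c, hc⟩ := exists_prime_orderOf_dvd_card' (G := A) p (by rw [hcA]; exact dvd_mul_left _ _)
  have hc' : orderOf (c : G) = p := by rw [Subgroup.orderOf_coe]; exact hc
  have hcen : ∀ g : G, g * c = c * g := by
    intro g
    have : g ∈ Subgroup.centralizer (A : Set G) := by rw [hA]; exact Subgroup.mem_top g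
    rw [Subgroup.mem_centralizer_iff] at this
    exact (this c c.2).symm
  set L := Subgroup.closure {x, y} with hL
  have hZp : Nat.card (Subgroup.zpowers (c : G)) = p := by rw [Nat.card_zpowers, hc']
  let F : L × Subgroup.zpowers (c : G) →* G := MonoidHom.noncommCoprod L.subtype (Subgroup.zpowers (c : G)).subtype (by
    rintro ⟨h, hh⟩ ⟨z, hz⟩
    obtain ⟨k, rfl⟩ := Subgroup.mem_zpowers_iff.1 hz
    show Commute h ((c : G) ^ k)
    exact (show Commute h (c : G) from hcen h).zpow_right k)
  have hcop : Nat.Coprime 120 p := by rcases hp2 with rfl | rfl <;> norm_num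
  have hF : Function.Injective F := by
    rw [injective_iff_map_eq_one]
    rintro ⟨⟨h, hh⟩, ⟨z, hz⟩⟩ h1
    have h2 : h * z = 1 := h1
    have h3 : h = z⁻¹ := eq_inv_of_mul_eq_one_left h2
    have h4 : orderOf z ∣ 120 := by
      rw [← orderOf_inv, ← h3, ← I.card_L]
      exact Subgroup.orderOf_dvd_natCard L hh
    have h5 : orderOf z ∣ p := by
      rw [← hZp]
      exact Subgroup.orderOf_dvd_natCard _ hz
    have h6 := Nat.eq_one_of_dvd_coprimes hcop h4 h5
    rw [orderOf_eq_one_iff] at h6
    have h7 : h = 1 := by rw [h6, mul_one] at h2; exact h2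
    exact Prod.ext (Subtype.ext h7) (Subtype.ext h6)
  have hFb : Function.Bijective F := by
    apply (Nat.bijective_iff_injective_and_card F).2
    refine ⟨hF, ?_⟩
    rw [Nat.card_prod, I.card_L, hZp, hG]
  obtain ⟨e1⟩ := D.ico_iso I.hx I.hy I.h10
  have e2 : Subgroup.zpowers (c : G) ≃* Multiplicative (ZMod p) := by
    apply mulEquivOfPrimeCardEq (p := p) hZp
    rw [Nat.card_congr Multiplicative.toAdd, Nat.card_zmod]
  exact ⟨(MulEquiv.ofBijective F hFb).symm.trans (e1.prodCongr e2)⟩

theorem iso_self {B : Type w} [Ring B] [Algebra ℚ B] [Nontrivial B] {τ : G →* B}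
    {D : ZF.ZD τ} {x y : G} (I : ZF.Ico D x y) (hG : Nat.card G = 120) :
    Nonempty (G ≃* Matrix.SpecialLinearGroup (Fin 2) (ZMod 5)) := by
  obtain ⟨e1⟩ := D.ico_iso I.hx I.hy I.h10
  have h1 : Subgroup.closure {x, y} = ⊤ := Subgroup.eq_top_of_card_eq _ (by rw [I.card_L, hG])
  exact ⟨(Subgroup.topEquiv.symm.trans (MulEquiv.subgroupCongr h1.symm)).trans e1⟩

end Cfsg.Agent.H21.RG
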