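import Cfsg.Agent.H21.RG15
import Cfsg.Agent.H10.Basic

set_option autoImplicit false
set_option linter.all false

/-!
Regular linear groups over the prime field, part 16 (helper21): the rows S0686, S0687, S0689.
-/

universe u v w

namespace Cfsg.Agent.H21.RG

open scoped commutatorElement

theorem q8_gen2 : ∀ i j : Q8, i * i ≠ 1 → j ≠ i → j ≠ i⁻¹ → j * j ≠ 1 → ∀ u : Q8, ∃ a b : Fin 4, u = i ^ (a : ℕ) * j ^ (b : ℕ) := by
  decide +kernel

theorem q8_innr : ∀ p1 p2 : Q8, (p1 = QuaternionGroup.a 1 ∨ p1 = QuaternionGroup.a 2 * QuaternionGroup.a 1) →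
    (p2 = QuaternionGroup.xa 0 ∨ p2 = QuaternionGroup.a 2 * QuaternionGroup.xa 0) →
    ∃ u : Q8, u * QuaternionGroup.a 1 * u⁻¹ = p1 ∧ u * QuaternionGroup.xa 0 * u⁻¹ = p2 := by
  decide +kernel

theorem q8_inv2 : ∀ u : Q8, u * u = 1 → ∀ v : Q8, u * v = v * u := by decide +kernel

section exc
variable {G : Type u} [Group G] [Finite G] {A R : Subgroup G} {e : R ≃* Q8}

theorem pow_card_mem {A : Subgroup G} {a : G} (ha : a ∈ A) : a ^ Nat.card A = 1 :=
  congrArg Subtype.val (pow_card_eq_one' (x := (⟨a, ha⟩ : A)))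

theorem Exc.not_comm (E : Exc A R e) : ¬ IsMulCommutative R := by
  intro h
  have h3 := h.is_comm.comm (e.symm (QuaternionGroup.a 1)) (e.symm (QuaternionGroup.xa 0))
  have h5 : e.symm (QuaternionGroup.a 1) * e.symm (QuaternionGroup.xa 0) = e.symm (QuaternionGroup.xa 0) * e.symm (QuaternionGroup.a 1) := h3
  rw [← map_mul, ← map_mul] at h5
  have h6 := e.symm.injective h5
  revert h6; decide

theorem Exc.min_eq [hR : R.Normal] (E : Exc A R e) (Q : QC G) (hA : Subgroup.centralizer (A : Set G) = ⊤) {k : ℕ}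
    (hk : Odd k) (hcA : Nat.card A = 2 * k) (N : Subgroup G) (hN : N.Normal) (hNna : ¬ IsMulCommutative N)
    (hmin : ∀ M : Subgroup G, M.Normal → M ≤ N → ¬ IsMulCommutative M → M = N) : N = R := by
  classical
  have hCR : Subgroup.centralizer (R : Set G) = A := by
    have := E.inter
    rwa [hA, top_inf_eq] at this
  have hsq : ∀ r : R, (r : G) * r = 1 ↔ e r * e r = 1 := by
    intro r
    rw [← map_mul, map_eq_one_iff e e.injective]
    constructor
    · intro h; exact Subtype.ext h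
    · intro h; exact congrArg Subtype.val h
  by_cases hNR : ∃ i ∈ N ⊓ R, i * i ≠ 1
  · obtain ⟨i, hi, hii⟩ := hNR
    have hiR := (Subgroup.mem_inf.1 hi).2
    obtain ⟨g, hg1, hg2⟩ := E.mv i hiR hii
    have hj : g * i * g⁻¹ ∈ N ⊓ R := by
      have hn : (N ⊓ R : Subgroup G).Normal := inferInstance
      exact hn.conj_mem i hi g
    set j := g * i * g⁻¹ with hjdef
    have hjR := (Subgroup.mem_inf.1 hj).2
    have hjj : j * j ≠ 1 := by
      intro h
      apply hii
      have : g * (i * i) * g⁻¹ = 1 := by rw [← h, hjdef]; group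
      exact conj_eq_one_iff.1 this
    have hRN : R ≤ N := by
      intro r hr
      obtain ⟨a, b, hab⟩ := q8_gen2 (e ⟨i, hiR⟩) (e ⟨j, hjR⟩) (by rw [ne_eq, ← hsq]; exact hii)
        (by intro h; exact hg1 (congrArg Subtype.val (e.injective h)))
        (by intro h; rw [← map_inv] at h; exact hg2 (congrArg Subtype.val (e.injective h)))
        (by rw [ne_eq, ← hsq]; exact hjj) (e ⟨r, hr⟩)
      rw [← map_pow, ← map_pow, ← map_mul] at hab
      have h1 : r = i ^ (a : ℕ) * j ^ (b : ℕ) := congrArg Subtype.val (e.injective hab)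
      rw [h1]
      exact N.mul_mem (N.pow_mem (Subgroup.mem_inf.1 hi).1 _) (N.pow_mem (Subgroup.mem_inf.1 hj).1 _)
    exact (hmin R hR hRN E.not_comm).symm
  · exfalso
    push Not at hNR
    -- every element of N is in A R
    have hAR : ∀ n ∈ N, ∃ a ∈ A, ∃ r : R, n = a * r := by
      intro n hn
      have h1 : ∀ u : Q8, psi R e n u = u ∨ psi R e n u = QuaternionGroup.a 2 * u := by
        intro u
        obtain ⟨r, rfl⟩ := e.surjective u
        rw [psi_apply]
        have h2 : n * r * n⁻¹ * (r : G)⁻¹ ∈ N ⊓ R := by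
          refine ⟨?_, R.mul_mem (hR.conj_mem r r.2 n) (R.inv_mem r.2)⟩
          have h3 : n * r * n⁻¹ * (r : G)⁻¹ = n * (r * n⁻¹ * (r : G)⁻¹) := by group
          rw [h3]
          exact N.mul_mem hn (hN.conj_mem _ (N.inv_mem hn) _)
        have h3 := hNR _ h2
        have h4 : e (⟨n * r * n⁻¹, hR.conj_mem r r.2 n⟩ * r⁻¹) * e (⟨n * r * n⁻¹, hR.conj_mem r r.2 n⟩ * r⁻¹) = 1 := by
          rw [← hsq]; exact h3
        rw [map_mul, map_inv] at h4
        rcases (q8_inv _).1 h4 with h5 | h5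
        · left; exact mul_inv_eq_one.1 h5
        · right; exact mul_inv_eq_iff_eq_mul.1 h5
      obtain ⟨u, hu1, hu2⟩ := q8_innr _ _ (h1 (QuaternionGroup.a 1)) (h1 (QuaternionGroup.xa 0))
      have h2 : psi R e n = MulAut.conj u := by
        apply mulAut_ext
        · rw [← hu1, MulAut.conj_apply]
        · rw [← hu2, MulAut.conj_apply]
      have h3 : psi R e (n * (e.symm u : G)⁻¹) = 1 := by
        rw [map_mul, map_inv, psi_coe, h2, mul_inv_cancel]
      rw [psi_eq_one, hCR] at h3
      exact ⟨_, h3, e.symm u, by group⟩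
    -- A is central
    have hcen : ∀ a ∈ A, ∀ g : G, g * a = a * g := by
      intro a ha g
      have : g ∈ Subgroup.centralizer (A : Set G) := by rw [hA]; exact Subgroup.mem_top g
      rw [Subgroup.mem_centralizer_iff] at this
      exact (this a ha).symm
    obtain ⟨n1, hn1, n2, hn2, hne⟩ : ∃ n1 ∈ N, ∃ n2 ∈ N, n1 * n2 ≠ n2 * n1 := by
      by_contra hcon
      push Not at hcon
      apply hNna
      constructor
      constructor
      rintro ⟨a, ha⟩ ⟨b, hb⟩
      exact Subtype.ext (hcon a ha b hb)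
    obtain ⟨a1, ha1, r1, rfl⟩ := hAR n1 hn1
    obtain ⟨a2, ha2, r2, rfl⟩ := hAR n2 hn2
    have hr : r1 * r2 ≠ r2 * r1 := by
      intro h
      apply hne
      have h' : (r1 : G) * r2 = r2 * r1 := congrArg Subtype.val h
      calc a1 * r1 * (a2 * r2) = a1 * (r1 * a2) * r2 := by group
        _ = a1 * a2 * (r1 * r2) := by rw [hcen a2 ha2]; group
        _ = a2 * a1 * (r2 * r1) := by rw [h', E.M.cA a1 ha1 a2 ha2]
        _ = a2 * (a1 * r2) * r1 := by group
        _ = a2 * r2 * (a1 * r1) := by rw [← hcen a1 ha1]; group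
    have hr1 : (r1 : G) * r1 ≠ 1 := by
      intro h
      apply hr
      apply e.injective
      rw [map_mul, map_mul]
      exact q8_inv2 _ ((hsq r1).1 h) _
    have hz2 : orderOf ((r1 : G) * r1) = 2 := by
      apply orderOf_eq_prime _ hr1
      have h1 := q8_sq (e r1) (fun h => hr1 ((hsq r1).2 h))
      have h2 : e (r1 * r1 * (r1 * r1)) = 1 := by
        rw [map_mul, map_mul, h1]; decide
      rw [map_eq_one_iff e e.injective] at h2
      rw [pow_two]
      exact congrArg Subtype.val h2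
    have hak : a1 ^ k ∈ R := by
      have h1 : (a1 ^ k) ^ 2 = 1 := by
        rw [← pow_mul, mul_comm k 2, ← hcA]
        exact pow_card_mem ha1
      by_cases h2 : a1 ^ k = 1
      · rw [h2]; exact R.one_mem
      · have h3 := Q.inv _ _ (orderOf_eq_prime h1 h2) hz2
        rw [h3]
        exact R.mul_mem r1.2 r1.2
    have hc : Commute a1 (r1 : G) := (hcen a1 ha1 r1).symm
    have h1 : (a1 * (r1 : G)) ^ k ∈ N ⊓ R := by
      refine ⟨N.pow_mem hn1 k, ?_⟩
      rw [hc.mul_pow]
      exact R.mul_mem hak (R.pow_mem r1.2 k)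
    have h2 := hNR _ h1
    obtain ⟨j, hj⟩ := hk
    apply hr1
    have h3 : (a1 * (r1 : G)) ^ k * (a1 * (r1 : G)) ^ k = (r1 : G) * r1 := by
      rw [← pow_add, ← two_mul, hc.mul_pow]
      have h4 : a1 ^ (2 * k) = 1 := by rw [← hcA]; exact pow_card_mem ha1
      have h5 := pow_orderOf_eq_one ((r1 : G) * r1)
      rw [hz2] at h5
      rw [h4, one_mul, pow_mul, pow_two, hj, pow_add, pow_mul, h5, one_pow, one_mul, pow_one]
    rw [← h3]
    exact h2

end exc

end Cfsg.Agent.H21.RG
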