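import Cfsg.Agent.H21.RG16

set_option autoImplicit false
set_option linter.all false

/-!
Regular linear groups over the prime field, part 17 (helper21): the rows S0686, S0687, S0689.
-/

universe u v w

namespace Cfsg.Agent.H21.RG

open scoped commutatorElement

section ico
variable {G : Type u} [Group G] [Finite G] {B : Type w} [Ring B] [Algebra ℚ B] [Nontrivial B] {τ : G →* B} {D : ZF.ZD τ}
  {x y : G} (I : ZF.Ico D x y)
include I

theorem L_comm : ⁅Subgroup.closure {x, y}, Subgroup.closure {x, y}⁆ = Subgroup.closure {x, y} := by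
  have h1 := perfect_L I
  have h2 := congrArg (Subgroup.map (Subgroup.closure {x, y}).subtype) h1
  rw [← MonoidHom.range_eq_map, Subgroup.range_subtype, commutator_def, Subgroup.map_commutator, ← MonoidHom.range_eq_map, Subgroup.range_subtype] at h2
  exact h2

/-- minimal non-abelian normal subgroups, non-solvable case -/
theorem min_eq_L (Q : QC G) {A : Subgroup G} (M : MaxAb A) (hcyc : ∀ B0 : Subgroup G, B0.Normal → (∀ a ∈ B0, ∀ b ∈ B0, a * b = b * a) → IsCyclic B0)
    (hA : Subgroup.centralizer (A : Set G) = ⊤) (hLA : Subgroup.centralizer (Subgroup.closure {x, y} : Set G) = A)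
    (N : Subgroup G) (hN : N.Normal) (hNna : ¬ IsMulCommutative N)
    (hmin : ∀ M : Subgroup G, M.Normal → M ≤ N → ¬ IsMulCommutative M → M = N) : N = Subgroup.closure {x, y} := by
  classical
  haveI := I.normal
  haveI := M.nA
  set L := Subgroup.closure {x, y} with hL
  have hNA : ¬ N ≤ A := by
    intro h
    apply hNna
    constructor
    constructor
    rintro ⟨a, ha⟩ ⟨b, hb⟩
    exact Subtype.ext (M.cA a (h ha) b (h hb))
  have hBn : (N ⊓ L : Subgroup G).Normal := inferInstance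
  have hBc : ¬ (N ⊓ L ≤ Subgroup.centralizer (L : Set G)) := by
    intro h
    have h1 : ⁅N, L⁆ ≤ N ⊓ L := Subgroup.commutator_le_inf N L
    have h2 : ⁅⁅N, L⁆, L⁆ = ⊥ := by
      rw [Subgroup.commutator_eq_bot_iff_le_centralizer]
      exact h1.trans h
    have h3 : ⁅⁅L, N⁆, L⁆ = ⊥ := by rw [Subgroup.commutator_comm L N]; exact h2
    have h4 : ⁅⁅L, L⁆, N⁆ = ⊥ := Subgroup.commutator_commutator_eq_bot_of_rotate h3 h2
    rw [L_comm I, Subgroup.commutator_comm, Subgroup.commutator_eq_bot_iff_le_centralizer, hLA] at h4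
    exact hNA h4
  have hBna : ¬ IsMulCommutative (N ⊓ L : Subgroup G) := by
    intro h
    apply hBc
    apply cyc_central I _ hBn
    apply hcyc _ hBn
    intro a ha b hb
    exact congrArg Subtype.val (h.is_comm.comm ⟨a, ha⟩ ⟨b, hb⟩)
  have h1 := hmin _ hBn inf_le_left hBna
  have hNL : N ≤ L := by rw [← h1]; exact inf_le_right
  apply le_antisymm hNL
  by_cases hs : Group.IsSolvable N
  · exfalso
    have hAN : A < A ⊔ N := by
      apply lt_of_le_of_ne le_sup_left
      intro h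
      apply hNA
      rw [h]; exact le_sup_right
    have hAs : Group.IsSolvable A := Group.isSolvable_of_comm (fun a b => Subtype.ext (M.cA a a.2 b b.2))
    obtain ⟨R', hR', hRE, ⟨e⟩⟩ := step' Q M.nA (E := A ⊔ N) (H10.sup_isSolvable hAs hs)
      (fun B hB hBc hAB _ => M.max B hB hBc hAB) inferInstance hAN (by
        intro z hz a ha
        have : z ∈ Subgroup.centralizer (A : Set G) := by rw [hA]; exact Subgroup.mem_top z
        rw [Subgroup.mem_centralizer_iff] at this
        exact (this a ha).symm)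
    have h2 : R' ≤ A := by
      rw [← hLA]
      exact quat_central I R' hR' e
    have h3 := M.cA _ (h2 (e.symm (QuaternionGroup.a 1)).2) _ (h2 (e.symm (QuaternionGroup.xa 0)).2)
    have h5 : e.symm (QuaternionGroup.a 1) * e.symm (QuaternionGroup.xa 0) = e.symm (QuaternionGroup.xa 0) * e.symm (QuaternionGroup.a 1) := Subtype.ext h3
    rw [← map_mul, ← map_mul] at h5
    have h6 := e.symm.injective h5
    revert h6; decide
  · -- an icosahedral pair in N
    obtain ⟨x', y', hx', hy', h10⟩ : ∃ x' y' : N, orderOf x' = 3 ∧ orderOf y' = 3 ∧ orderOf (x' * y') = 10 := by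
      by_contra hcon
      push Not at hcon
      apply hs
      apply ZF.ZD.solvable_of_no_ico (A := B) (Nat.card N) N _ (D.sub N) _ le_rfl
      intro a b ha hb h
      exact hcon a b ha hb h
    have I' : ZF.Ico D (x' : G) (y' : G) := ⟨by rw [Subgroup.orderOf_coe]; exact hx', by rw [Subgroup.orderOf_coe]; exact hy',
      by rw [← Subgroup.coe_mul, Subgroup.orderOf_coe]; exact h10⟩
    have h2 : Subgroup.closure {(x' : G), (y' : G)} ≤ N := by
      rw [Subgroup.closure_le]
      rintro t (rfl | rfl)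
      · exact x'.2
      · exact y'.2
    rw [hL, Subgroup.closure_le]
    rintro t (rfl | rfl)
    · exact h2 (I'.mem I.hx)
    · exact h2 (I'.mem I.hy)

end ico

section rows
variable {p : ℕ} [hp : Fact p.Prime] {V : Type v} [AddCommGroup V] [Module (ZMod p) V] [Finite V] (H : Subgroup (V ≃ₗ[ZMod p] V))

theorem finite_equiv : Finite (V ≃ₗ[ZMod p] V) := by
  apply Finite.of_injective (fun f : V ≃ₗ[ZMod p] V => (f : V → V))
  intro f g h
  exact LinearEquiv.ext (congrFun h)

theorem row689 (hreg : ∀ v w : V, v ≠ 0 → w ≠ 0 → ∃! h : H, (h : V ≃ₗ[ZMod p] V) v = w) (hsolv : ¬ Group.IsSolvable H) :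
    (Nat.card V = 121 ∧ Nonempty (H ≃* Matrix.SpecialLinearGroup (Fin 2) (ZMod 5))) ∨
    (Nat.card V = 841 ∧ Nonempty (H ≃* Matrix.SpecialLinearGroup (Fin 2) (ZMod 5) × Multiplicative (ZMod 7))) ∨
    (Nat.card V = 3481 ∧ Nonempty (H ≃* Matrix.SpecialLinearGroup (Fin 2) (ZMod 5) × Multiplicative (ZMod 29))) := by
  haveI : Finite (V ≃ₗ[ZMod p] V) := finite_equiv
  haveI : Nontrivial V := by
    by_contra hV
    rw [not_nontrivial_iff_subsingleton] at hV
    haveI : Subsingleton (V ≃ₗ[ZMod p] V) := ⟨fun f g => LinearEquiv.ext (fun v => Subsingleton.elim _ _)⟩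
    haveI : Subsingleton H := inferInstance
    exact hsolv inferInstance
  have R := regAct H hreg
  obtain ⟨A, M⟩ := exists_maxAb (G := H)
  obtain ⟨m, ι, K⟩ := exists_fld R A M.nA M.cA
  obtain ⟨B, i1, i2, i3, τ, D, x, y, I⟩ := exists_ico' R hsolv
  obtain ⟨k1, hV, hA, hLA, hLAt, hG, hq⟩ := nonsolv_main R K M I
  rcases hq with ⟨rfl, hcA⟩ | ⟨rfl, hcA⟩ | ⟨rfl, hcA⟩
  · left
    exact ⟨by rw [hV]; norm_num, iso_self I (by rw [hG, hcA])⟩
  · right; left
    exact ⟨by rw [hV]; norm_num, iso_prod I hA 7 (by norm_num) (Or.inl rfl) (by rw [hcA]) (by rw [hG, hcA])⟩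
  · right; right
    exact ⟨by rw [hV]; norm_num, iso_prod I hA 29 (by norm_num) (Or.inr rfl) (by rw [hcA]) (by rw [hG, hcA])⟩

theorem num_odd {p k da : ℕ} (h4 : 2 * k * da + 1 = p ^ 2) (hA1 : 2 * k ∣ p - 1) (hda : da = 12 ∨ da = 24)
    (hq4 : p = 5 ∨ p = 7 ∨ p = 11 ∨ p = 23) : Odd k := by
  rcases hq4 with h | h | h | h <;> rw [h] at h4 hA1 <;> rcases hda with h' | h' <;> rw [h'] at h4
  · exact ⟨0, by omega⟩
  · exfalso; omega
  · exfalso; have : k = 2 := by omega
    rw [this] at hA1; revert hA1; norm_num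
  · exact ⟨0, by omega⟩
  · exact ⟨2, by omega⟩
  · exfalso; omega
  · exfalso; have : k = 22 := by omega
    rw [this] at hA1; revert hA1; norm_num
  · exact ⟨5, by omega⟩

/-- the common core of the rows S0686 and S0687 -/
theorem core686 (hreg : ∀ v w : V, v ≠ 0 → w ≠ 0 → ∃! h : H, (h : V ≃ₗ[ZMod p] V) v = w)
    (hI : ∀ A : Subgroup H, A.Normal → IsCyclic A → ∃ W : Submodule (ZMod p) V, W ≠ ⊥ ∧ W ≠ ⊤ ∧ ∀ a ∈ A, ∀ v ∈ W, ((a : H) : V ≃ₗ[ZMod p] V) v ∈ W)
    (A : Subgroup H) (hAn : A.Normal) (hAc : IsMulCommutative A)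
    (hAmax : ∀ B : Subgroup H, B.Normal → IsMulCommutative B → A ≤ B → B = A) (N : Subgroup H) (hNn : N.Normal)
    (hNna : ¬ IsMulCommutative N)
    (hNmin : ∀ M : Subgroup H, M.Normal → M ≤ N → ¬ IsMulCommutative M → M = N) :
    (Nonempty (N ≃* QuaternionGroup 2) ∨ Nonempty (N ≃* Matrix.SpecialLinearGroup (Fin 2) (ZMod 5))) ∧
    Nat.card V = p ^ 2 ∧ Subgroup.centralizer (N : Set H) = A := by
  haveI : Finite (V ≃ₗ[ZMod p] V) := finite_equiv
  haveI := nontrivial_of_hI H hI
  have R := regAct H hreg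
  have M : MaxAb A := ⟨hAn, fun a ha b hb => congrArg Subtype.val (hAc.is_comm.comm ⟨a, ha⟩ ⟨b, hb⟩), fun B hB hBc hAB =>
    hAmax B hB ⟨⟨fun a b => Subtype.ext (hBc a a.2 b b.2)⟩⟩ hAB⟩
  obtain ⟨m, ι, K⟩ := exists_fld R A M.nA M.cA
  by_cases hs : Group.IsSolvable H
  · obtain ⟨Rq, hRq, e, E, hV, hA, hd, h12, h24, hq4, hcard, hA1⟩ := exc_of_hI H hreg hI hs M
    have h4 := card_add_one R
    rw [hcard, hV] at h4
    have hda : Nat.card (psi Rq e).range = 12 ∨ Nat.card (psi Rq e).range = 24 := by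
      obtain ⟨k, hk⟩ := h12
      have : 0 < Nat.card (psi Rq e).range := Nat.card_pos
      omega
    obtain ⟨k, hk, hcA⟩ : ∃ k, Odd k ∧ Nat.card A = 2 * k := by
      have h2A : 2 ∣ Nat.card A := by
        -- the square of an element of order 4 lies in A
        have h1 : ((e.symm (QuaternionGroup.a 2) : Rq) : H) ∈ A := by
          rw [← E.inter, hA, top_inf_eq, ← psi_eq_one Rq e, psi_coe]
          apply MulEquiv.ext
          intro u
          rw [MulAut.conj_apply, MulAut.one_apply]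
          revert u; decide
        have h2 := Subgroup.orderOf_dvd_natCard A h1
        rw [Subgroup.orderOf_coe, MulEquiv.orderOf_eq] at h2
        have h3 : orderOf (QuaternionGroup.a 2 : Q8) = 2 := orderOf_eq_prime (by decide) (by decide)
        rwa [h3] at h2
      obtain ⟨k, hk⟩ := h2A
      refine ⟨k, ?_, hk⟩
      rw [hk] at h4 hA1
      exact num_odd h4 hA1 hda hq4
    have hNR := E.min_eq (qc R) hA hk hcA N hNn hNna hNmin
    subst hNR
    refine ⟨Or.inl ⟨e⟩, hV, ?_⟩
    have := E.inter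
    rwa [hA, top_inf_eq] at this
  · obtain ⟨B, i1, i2, i3, τ, D, x, y, I⟩ := exists_ico' R hs
    obtain ⟨k1, hV, hA, hLA, hLAt, hG, hq⟩ := nonsolv_main R K M I
    have hNL := min_eq_L I (qc R) M (fun B0 hB0 hB0c => by
      obtain ⟨m', ι', K'⟩ := exists_fld R B0 hB0 hB0c
      exact K'.cyclic (fun g h => inj R)) hA hLA N hNn hNna hNmin
    subst hNL
    exact ⟨Or.inr (D.ico_iso I.hx I.hy I.h10), hV, hLA⟩

theorem irr_of_card (hreg : ∀ v w : V, v ≠ 0 → w ≠ 0 → ∃! h : H, (h : V ≃ₗ[ZMod p] V) v = w) (hV : Nat.card V = p ^ 2)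
    (N : Subgroup H) (hNna : ¬ IsMulCommutative N) (W : Submodule (ZMod p) V)
    (hW : ∀ n ∈ N, ∀ v ∈ W, ((n : H) : V ≃ₗ[ZMod p] V) v ∈ W) : W = ⊥ ∨ W = ⊤ := by
  classical
  by_contra hcon
  push Not at hcon
  obtain ⟨hW0, hW1⟩ := hcon
  haveI : Finite (V ≃ₗ[ZMod p] V) := finite_equiv
  haveI : Nontrivial V := by
    obtain ⟨v, -, hv⟩ := Submodule.exists_mem_ne_zero_of_ne_bot hW0
    exact ⟨v, 0, hv⟩
  have R := regAct H hreg
  have h2 : Module.finrank (ZMod p) V = 2 := by
    have h3 : Nat.card V = p ^ Module.finrank (ZMod p) V := by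
      rw [Module.natCard_eq_pow_finrank (K := ZMod p), Nat.card_zmod]
    rw [h3] at hV
    exact Nat.pow_right_injective hp.out.two_le hV
  have h3 : Module.finrank (ZMod p) W < 2 := by
    rw [← h2]
    exact Submodule.finrank_lt hW1
  have h4 : 0 < Module.finrank (ZMod p) W := by
    haveI : Nontrivial W := Submodule.nontrivial_iff_ne_bot.2 hW0
    exact Module.finrank_pos
  have h5 : Module.finrank (ZMod p) W = 1 := by omega
  obtain ⟨w, hw, hw0⟩ := Submodule.exists_mem_ne_zero_of_ne_bot hW0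
  have h6 := (finrank_eq_one_iff_of_nonzero' (⟨w, hw⟩ : W) (fun h => hw0 (congrArg Subtype.val h))).1 h5
  have h7 : ∀ n ∈ N, ∃ c : ZMod p, act H n w = c • w := by
    intro n hn
    obtain ⟨c, hc⟩ := h6 ⟨_, hW n hn w hw⟩
    exact ⟨c, (congrArg Subtype.val hc).symm⟩
  apply hNna
  constructor
  constructor
  rintro ⟨a, ha⟩ ⟨b, hb⟩
  apply Subtype.ext
  show a * b = b * a
  obtain ⟨c, hc⟩ := h7 a ha
  obtain ⟨d, hd⟩ := h7 b hb
  have h8 : act H (a * b) w = act H (b * a) w := by
    rw [map_mul, map_mul, Module.End.mul_apply, Module.End.mul_apply, hc, hd, map_smul, map_smul, hc, hd, smul_comm]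
  have h9 : act H ((b * a)⁻¹ * (a * b)) w = w := by
    rw [map_mul, Module.End.mul_apply, h8, inv_apply]
  have := R.free w hw0 _ h9
  rw [inv_mul_eq_one] at this
  exact this.symm

end rows

end Cfsg.Agent.H21.RG
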